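import Mathlib.Data.Nat.Choose.Factorization
import Mathlib.Data.ZMod.Basic
import Mathlib.Data.Nat.Factorization.Basic
import Mathlib.Tactic.IntervalCases
import Mathlib.Tactic.LinearCombination

/-!
Binomial coefficients free of small primes: if no prime `p ≤ m` divides `(m + l).choose l` and
`2 ≤ l < m`, then `(m, l) = (4, 3)`.
-/

set_option autoImplicit false

namespace CfsgLib.ChooseSmallPrime

/-- No carry when adding `m` and `l` in base `p`, if `p` does not divide the binomial coefficient. -/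
theorem mod_add_lt {p m l : ℕ} (hp : p.Prime) (h : ¬ p ∣ (m + l).choose l) (e : ℕ) :
    m % p ^ e + l % p ^ e < p ^ e := by
  rcases Nat.eq_zero_or_pos e with rfl | he
  · simp [Nat.mod_one]
  by_contra hc
  rw [not_lt] at hc
  have h0 := Nat.factorization_eq_zero_of_not_dvd h
  rw [Nat.factorization_choose' (b := max (Nat.log p (m + l) + 1) (e + 1)) hp (by omega),
    Finset.card_eq_zero] at h0
  have hmem : e ∈ (Finset.Ico 1 (max (Nat.log p (m + l) + 1) (e + 1))).filter
      fun i => p ^ i ≤ l % p ^ i + m % p ^ i := by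
    rw [Finset.mem_filter, Finset.mem_Ico]
    exact ⟨⟨he, by omega⟩, by omega⟩
  rw [h0] at hmem
  exact absurd hmem (Finset.notMem_empty e)

theorem add_mod_of_lt {m l q : ℕ} (h : m % q + l % q < q) : (m + l) % q = m % q + l % q := by
  rw [Nat.add_mod, Nat.mod_eq_of_lt h]

/-- A number all of whose prime power divisors divide `N` divides `N`. -/
theorem dvd_of_prime_pow {n N : ℕ} (h : ∀ p e : ℕ, p.Prime → p ^ e ∣ n → p ^ e ∣ N) : n ∣ N :=
  (Nat.dvd_iff_prime_pow_dvd_dvd N n).2 h

/-- If no prime `p ≤ m` divides `(m + 1).choose 1`, then `m + 1` is prime. -/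
theorem prime_succ {m : ℕ} (hm : 1 ≤ m) (h : ∀ p : ℕ, p.Prime → p ≤ m → ¬ p ∣ m + 1) :
    (m + 1).Prime := by
  by_contra hn
  have h1 := Nat.minFac_prime (show m + 1 ≠ 1 by omega)
  have h2 : (m + 1).minFac ≤ m + 1 := Nat.minFac_le (by omega)
  have h3 : (m + 1).minFac ≠ m + 1 := fun e => hn (e ▸ h1)
  exact h _ h1 (by omega) (Nat.minFac_dvd _)

/-- The residue cases shared by the two outer elements. -/
theorem residue_case {q r : ℕ} (hr : r ≤ 3)
    (h : ((r : ZMod q) - 5) * (-2) - 3 * r * ((r : ZMod q) - 1) = 0) :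
    (r = 0 ∧ q ∣ 10) ∨ (r = 1 ∧ q ∣ 8) ∨ r = 2 ∨ (r = 3 ∧ q ∣ 14) := by
  interval_cases r
  · refine Or.inl ⟨rfl, (ZMod.natCast_eq_zero_iff 10 q).1 ?_⟩
    push_cast at h ⊢
    linear_combination h
  · refine Or.inr (Or.inl ⟨rfl, (ZMod.natCast_eq_zero_iff 8 q).1 ?_⟩)
    push_cast at h ⊢
    linear_combination h
  · exact Or.inr (Or.inr (Or.inl rfl))
  · refine Or.inr (Or.inr (Or.inr ⟨rfl, (ZMod.natCast_eq_zero_iff 14 q).1 ?_⟩))
    push_cast at h ⊢
    linear_combination -h

theorem small_case : ∀ d < 160, ∀ b < 2 * d + 1, (2 * d + 1) * (3 * d + 1) = 2 * ((d + b) * b) →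
    d = 1 ∧ b = 2 := by
  decide +kernel

/-- The exceptional quadratic family does not occur. -/
theorem no_quadratic_family {m l : ℕ} (hl : 2 ≤ l) (hlm : l < m)
    (hnc : ∀ p e : ℕ, p.Prime → p ≤ m → m % p ^ e + l % p ^ e < p ^ e)
    (hx6 : 6 ∣ m + l - 1) (hy6 : 6 ∣ m + 2)
    (hE : (m + l - 1) * (m + 2) = 3 * (l * (l - 1))) : False := by
  obtain ⟨b, hb⟩ := hy6
  obtain ⟨a, ha⟩ := hx6
  obtain ⟨d, hd⟩ : ∃ d, l = 6 * d + 3 := ⟨(l - 3) / 6, by omega⟩
  have hz : ∀ p e : ℕ, p.Prime → p ^ e ∣ m + 4 →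
      p ^ e ≤ 2 ∨ ((l : ZMod (p ^ e)) = ((l % p ^ e : ℕ) : ZMod (p ^ e)) ∧ l % p ^ e ≤ 3 ∧
        ((l % p ^ e = 0 ∧ p ^ e ∣ 10) ∨ (l % p ^ e = 1 ∧ p ^ e ∣ 8) ∨ l % p ^ e = 2 ∨
          (l % p ^ e = 3 ∧ p ^ e ∣ 14))) := by
    intro p e hp hq
    by_cases h4 : p ^ e ≤ 3
    · rcases eq_or_lt_of_le h4 with h3 | h3
      · rw [h3] at hq; omega
      · exact Or.inl (by omega)
    · right
      have hpm : p ≤ m := by
        by_contra hpm
        have h1 : p ∣ m + 4 :=
          (dvd_pow_self p (fun he => by rw [he, pow_zero] at h4; omega)).trans hq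
        obtain ⟨k, hk⟩ := h1
        have hk2 : k < 2 := by nlinarith
        interval_cases k
        · omega
        · have := hp.eq_two_or_odd
          omega
      have hc := hnc p e hp hpm
      have hmq : m % p ^ e + 4 = p ^ e := by
        obtain ⟨k, hk⟩ := hq
        obtain ⟨k', rfl⟩ : ∃ k', k = k' + 1 := ⟨k - 1, by
          rcases Nat.eq_zero_or_pos k with rfl | hk0
          · omega
          · omega⟩
        have : m = (p ^ e - 4) + p ^ e * k' := by rw [Nat.mul_add, mul_one] at hk; omega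
        rw [this, Nat.add_mul_mod_self_left, Nat.mod_eq_of_lt (by omega)]
        omega
      have hr : l % p ^ e ≤ 3 := by omega
      refine ⟨(ZMod.natCast_mod l (p ^ e)).symm, hr, residue_case hr ?_⟩
      rw [ZMod.natCast_mod]
      have hy : ((m : ZMod (p ^ e)) + 4) = 0 := by
        exact_mod_cast (ZMod.natCast_eq_zero_iff _ _).2 hq
      have hE' := congrArg (fun t : ℕ => (t : ZMod (p ^ e))) hE
      rw [Nat.cast_mul, Nat.cast_mul, Nat.cast_mul, Nat.cast_sub (by omega : 1 ≤ m + l),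
        Nat.cast_sub (by omega : 1 ≤ l)] at hE'
      push_cast at hE'
      linear_combination hE' - ((m : ZMod (p ^ e)) + l - 3) * hy
  have hw : ∀ p e : ℕ, p.Prime → p ^ e ∣ m + l - 3 →
      p ^ e ≤ 2 ∨ ((l : ZMod (p ^ e)) = ((l % p ^ e : ℕ) : ZMod (p ^ e)) ∧ l % p ^ e ≤ 3 ∧
        ((l % p ^ e = 0 ∧ p ^ e ∣ 10) ∨ (l % p ^ e = 1 ∧ p ^ e ∣ 8) ∨ l % p ^ e = 2 ∨
          (l % p ^ e = 3 ∧ p ^ e ∣ 14))) := by
    intro p e hp hq
    by_cases h4 : p ^ e ≤ 3
    · rcases eq_or_lt_of_le h4 with h3 | h3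
      · rw [h3] at hq; omega
      · exact Or.inl (by omega)
    · right
      have hpm : p ≤ m := by
        by_contra hpm
        have h1 : p ∣ m + l - 3 :=
          (dvd_pow_self p (fun he => by rw [he, pow_zero] at h4; omega)).trans hq
        obtain ⟨k, hk⟩ := h1
        have hk2 : k < 2 := by
          by_contra hk2
          have : p * 2 ≤ p * k := Nat.mul_le_mul_left p (by omega)
          omega
        interval_cases k
        · omega
        · have := hp.eq_two_or_odd
          omega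
      have hc := hnc p e hp hpm
      have hq' : (m + l) % p ^ e = 3 := by
        obtain ⟨k, hk⟩ := hq
        have : m + l = 3 + p ^ e * k := by omega
        rw [this, Nat.add_mul_mod_self_left, Nat.mod_eq_of_lt (by omega)]
      rw [add_mod_of_lt hc] at hq'
      have h8 := Nat.zero_le (m % p ^ e)
      have hr : l % p ^ e ≤ 3 := by omega
      refine ⟨(ZMod.natCast_mod l (p ^ e)).symm, hr, residue_case hr ?_⟩
      rw [ZMod.natCast_mod]
      have hy : ((m : ZMod (p ^ e)) + l - 3) = 0 := by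
        have := (ZMod.natCast_eq_zero_iff _ _).2 hq
        rw [Nat.cast_sub (by omega : 3 ≤ m + l)] at this
        push_cast at this
        exact this
      have hE' := congrArg (fun t : ℕ => (t : ZMod (p ^ e))) hE
      rw [Nat.cast_mul, Nat.cast_mul, Nat.cast_mul, Nat.cast_sub (by omega : 1 ≤ m + l),
        Nat.cast_sub (by omega : 1 ≤ l)] at hE'
      push_cast at hE'
      linear_combination hE' - ((m : ZMod (p ^ e)) + 4) * hy
  have hbig : ∀ q : ℕ, q ≤ 2 ∨ ((q ∣ 10 ∨ q ∣ 8 ∨ q ∣ 14)) ∨ l % q = 2 →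
      0 < q → q ∣ 280 * (l - 2) := by
    intro q h hq
    rcases h with h | (h | h | h) | h
    · interval_cases q
      · exact one_dvd _
      · exact Dvd.dvd.mul_right (by norm_num) _
    · exact Dvd.dvd.mul_right (h.trans (by norm_num)) _
    · exact Dvd.dvd.mul_right (h.trans (by norm_num)) _
    · exact Dvd.dvd.mul_right (h.trans (by norm_num)) _
    · refine Dvd.dvd.mul_left ⟨l / q, ?_⟩ _
      have := Nat.div_add_mod l q
      omega
  have hz1 : m + 4 ∣ 280 * (l - 2) := dvd_of_prime_pow fun p e hp hq => by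
    refine hbig _ ?_ (pow_pos hp.pos e)
    rcases hz p e hp hq with h | ⟨-, -, h | h | h | h⟩
    exacts [Or.inl h, Or.inr (Or.inl (Or.inl h.2)), Or.inr (Or.inl (Or.inr (Or.inl h.2))),
      Or.inr (Or.inr h), Or.inr (Or.inl (Or.inr (Or.inr h.2)))]
  have hw1 : m + l - 3 ∣ 280 * (l - 2) := dvd_of_prime_pow fun p e hp hq => by
    refine hbig _ ?_ (pow_pos hp.pos e)
    rcases hw p e hp hq with h | ⟨-, -, h | h | h | h⟩
    exacts [Or.inl h, Or.inr (Or.inl (Or.inl h.2)), Or.inr (Or.inl (Or.inr (Or.inl h.2))),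
      Or.inr (Or.inr h), Or.inr (Or.inl (Or.inr (Or.inr h.2)))]
  have hg : Nat.gcd (m + 4) (m + l - 3) ∣ 10 := dvd_of_prime_pow fun p e hp hq => by
    have hqz := hq.trans (Nat.gcd_dvd_left _ _)
    have hqw := hq.trans (Nat.gcd_dvd_right _ _)
    have hdiff : (l : ZMod (p ^ e)) - 7 = 0 := by
      have h1 := (ZMod.natCast_eq_zero_iff _ _).2 hqz
      have h2 := (ZMod.natCast_eq_zero_iff _ _).2 hqw
      rw [Nat.cast_sub (by omega : 3 ≤ m + l)] at h2
      push_cast at h1 h2
      linear_combination h2 - h1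
    rcases hz p e hp hqz with h | ⟨hl', -, h⟩
    · have := pow_pos hp.pos e
      interval_cases p ^ e <;> norm_num
    rw [hl'] at hdiff
    rcases h with ⟨h0, h⟩ | ⟨h0, h⟩ | h0 | ⟨h0, h⟩
    · exact h
    · have h7 : p ^ e ∣ 6 := (ZMod.natCast_eq_zero_iff 6 _).1 (by
        rw [h0] at hdiff
        push_cast at hdiff ⊢
        linear_combination -hdiff)
      exact (Nat.dvd_gcd h h7).trans (by decide)
    · have h7 : p ^ e ∣ 5 := (ZMod.natCast_eq_zero_iff 5 _).1 (by
        rw [h0] at hdiff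
        push_cast at hdiff ⊢
        linear_combination -hdiff)
      exact h7.trans (by decide)
    · have h7 : p ^ e ∣ 4 := (ZMod.natCast_eq_zero_iff 4 _).1 (by
        rw [h0] at hdiff
        push_cast at hdiff ⊢
        linear_combination -hdiff)
      exact (Nat.dvd_gcd h h7).trans (by decide)
  have hbound : (m + 4) * (m + l - 3) ≤ 10 * (280 * (l - 2)) := by
    rw [← Nat.gcd_mul_lcm (m + 4) (m + l - 3)]
    exact Nat.mul_le_mul (Nat.le_of_dvd (by norm_num) hg)
      (Nat.le_of_dvd (by omega) (Nat.lcm_dvd hz1 hw1))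
  obtain ⟨l', rfl⟩ : ∃ l', l = l' + 3 := ⟨l - 3, by omega⟩
  have e1 : m + (l' + 3) - 1 = m + l' + 2 := by omega
  have e2 : m + (l' + 3) - 3 = m + l' := by omega
  have e3 : l' + 3 - 1 = l' + 2 := by omega
  have e4 : l' + 3 - 2 = l' + 1 := by omega
  rw [e2, e4] at hbound
  rw [e1, e3] at hE
  have hd160 : d < 160 := by nlinarith
  rw [e1] at ha
  obtain rfl : l' = 6 * d := by omega
  have hab : a = d + b := by omega
  have hb2 : b < 2 * d + 1 := by
    by_contra hb2
    nlinarith
  obtain ⟨rfl, rfl⟩ := small_case d hd160 b hb2 (by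
    subst hab
    rw [ha, hb] at hE
    nlinarith)
  obtain rfl : m = 10 := by omega
  have := hnc 2 4 Nat.prime_two (by norm_num)
  norm_num at this

/-- If no prime `p ≤ m` divides `(m + l).choose l`, where `2 ≤ l < m`, then `m = 4` and `l = 3`. -/
theorem eq_four_three {m l : ℕ} (hl : 2 ≤ l) (hlm : l < m)
    (h : ∀ p : ℕ, p.Prime → p ≤ m → ¬ p ∣ (m + l).choose l) : m = 4 ∧ l = 3 := by
  have hnc : ∀ p e : ℕ, p.Prime → p ≤ m → m % p ^ e + l % p ^ e < p ^ e := fun p e hp hpm =>
    mod_add_lt hp (h p hp hpm) e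
  -- the total is prime
  have hn : (m + l).Prime := by
    by_contra hn
    have hdvd : m + l ∣ l := dvd_of_prime_pow fun p e hp hq => by
      rcases Nat.eq_zero_or_pos e with rfl | he
      · simp
      have hpm : p ≤ m := by
        obtain ⟨k, hk⟩ := (dvd_pow_self p he.ne').trans hq
        have h1 : k ≠ 1 := fun e1 => hn (by rw [hk, e1, mul_one]; exact hp)
        have h0 : k ≠ 0 := fun e0 => by simp [e0] at hk; omega
        have : p * 2 ≤ p * k := Nat.mul_le_mul_left p (by omega)
        omega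
      have hc := hnc p e hp hpm
      have h0 := Nat.mod_eq_zero_of_dvd hq
      rw [add_mod_of_lt hc] at h0
      have h9 := Nat.zero_le (l % p ^ e)
      have h8 := Nat.zero_le (m % p ^ e)
      exact Nat.dvd_of_mod_eq_zero (by omega)
    have := Nat.le_of_dvd (by omega) hdvd
    omega
  have hm1 : (m + 1).Prime := by
    by_contra hm1
    have hdvd : m + 1 ∣ l := dvd_of_prime_pow fun p e hp hq => by
      rcases Nat.eq_zero_or_pos e with rfl | he
      · simp
      have hpm : p ≤ m := by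
        obtain ⟨k, hk⟩ := (dvd_pow_self p he.ne').trans hq
        have h1 : k ≠ 1 := fun e1 => hm1 (by rw [hk, e1, mul_one]; exact hp)
        have h0 : k ≠ 0 := fun e0 => by simp [e0] at hk
        have : p * 2 ≤ p * k := Nat.mul_le_mul_left p (by omega)
        omega
      have hc := hnc p e hp hpm
      obtain ⟨k, hk⟩ := hq
      have hq1 : 1 < p ^ e := Nat.one_lt_pow he.ne' hp.one_lt
      have : m % p ^ e = p ^ e - 1 := by
        obtain ⟨k', rfl⟩ : ∃ k', k = k' + 1 := ⟨k - 1, by
          rcases Nat.eq_zero_or_pos k with rfl | hk0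
          · omega
          · omega⟩
        have : m = (p ^ e - 1) + p ^ e * k' := by rw [Nat.mul_add, mul_one] at hk; omega
        rw [this, Nat.add_mul_mod_self_left, Nat.mod_eq_of_lt (by omega)]
      have h9 := Nat.zero_le (l % p ^ e)
      exact Nat.dvd_of_mod_eq_zero (by omega)
    have := Nat.le_of_dvd (by omega) hdvd
    omega
  have hmodd : m % 2 = 0 := by
    rcases hm1.eq_two_or_odd with h1 | h1 <;> omega
  have hnodd : (m + l) % 2 = 1 := by
    rcases hn.eq_two_or_odd with h1 | h1 <;> omega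
  -- the two inner neighbours
  have hLeven : ∀ q, q ≤ 2 → 0 < q → q ∣ l * (l - 1) := fun q hq hq0 => by
    interval_cases q
    · exact one_dvd _
    · exact Dvd.dvd.mul_left (by omega) _
  have hres : ∀ q : ℕ, l % q ≤ 1 → q ∣ l * (l - 1) := fun q hq => by
    rcases (show l % q = 0 ∨ l % q = 1 by omega) with h0 | h0
    · exact Dvd.dvd.mul_right (Nat.dvd_of_mod_eq_zero h0) _
    · refine Dvd.dvd.mul_left ⟨l / q, ?_⟩ _
      have := Nat.div_add_mod l q
      omega
  have hy : m + 2 ∣ l * (l - 1) := dvd_of_prime_pow fun p e hp hq => by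
    by_cases h2 : p ^ e ≤ 2
    · exact hLeven _ h2 (pow_pos hp.pos e)
    have hpm : p ≤ m := by
      have h1 : p ∣ m + 2 :=
        (dvd_pow_self p (fun he => by rw [he, pow_zero] at h2; omega)).trans hq
      obtain ⟨k, hk⟩ := h1
      by_contra hc
      have hk2 : k < 2 := by
        by_contra hk2
        have : p * 2 ≤ p * k := Nat.mul_le_mul_left p (by omega)
        omega
      interval_cases k
      · omega
      · have := hp.eq_two_or_odd
        omega
    have hc := hnc p e hp hpm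
    obtain ⟨k, hk⟩ := hq
    obtain ⟨k', rfl⟩ : ∃ k', k = k' + 1 := ⟨k - 1, by
      rcases Nat.eq_zero_or_pos k with rfl | hk0
      · omega
      · omega⟩
    have : m = (p ^ e - 2) + p ^ e * k' := by rw [Nat.mul_add, mul_one] at hk; omega
    have : m % p ^ e = p ^ e - 2 := by
      rw [this, Nat.add_mul_mod_self_left, Nat.mod_eq_of_lt (by omega)]
    exact hres _ (by omega)
  have hx : m + l - 1 ∣ l * (l - 1) := dvd_of_prime_pow fun p e hp hq => by
    by_cases h2 : p ^ e ≤ 2
    · exact hLeven _ h2 (pow_pos hp.pos e)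
    have hpm : p ≤ m := by
      have h1 : p ∣ m + l - 1 :=
        (dvd_pow_self p (fun he => by rw [he, pow_zero] at h2; omega)).trans hq
      obtain ⟨k, hk⟩ := h1
      by_contra hc
      have hk2 : k < 2 := by
        by_contra hk2
        have : p * 2 ≤ p * k := Nat.mul_le_mul_left p (by omega)
        omega
      interval_cases k
      · omega
      · have := hp.eq_two_or_odd
        omega
    have hc := hnc p e hp hpm
    obtain ⟨k, hk⟩ := hq
    have : m + l = 1 + p ^ e * k := by omega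
    have h1 : (m + l) % p ^ e = 1 := by
      rw [this, Nat.add_mul_mod_self_left, Nat.mod_eq_of_lt (by omega)]
    rw [add_mod_of_lt hc] at h1
    have h8 := Nat.zero_le (m % p ^ e)
    exact hres _ (by omega)
  -- the quadratic equation
  have hg6 : Nat.gcd (m + 2) (m + l - 1) ∣ 6 := by
    have h1 := Nat.gcd_dvd_left (m + 2) (m + l - 1)
    have h2 := Nat.gcd_dvd_right (m + 2) (m + l - 1)
    have h3 : Nat.gcd (m + 2) (m + l - 1) ∣ l - 3 := by
      have := Nat.dvd_sub h2 h1
      rwa [show m + l - 1 - (m + 2) = l - 3 by omega] at this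
    obtain ⟨l', rfl⟩ : ∃ l', l = l' + 3 := ⟨l - 3, by omega⟩
    have h4 := h1.trans hy
    rw [show (l' + 3) * (l' + 3 - 1) = l' * (l' + 5) + 6 by
      rw [show l' + 3 - 1 = l' + 2 by omega]; ring] at h4
    rw [Nat.add_sub_cancel] at h3
    exact (Nat.dvd_add_right (h3.mul_right _)).1 h4
  have hg2 : 2 ∣ Nat.gcd (m + 2) (m + l - 1) := Nat.dvd_gcd (by omega) (by omega)
  obtain ⟨j, hj⟩ := Nat.lcm_dvd hy hx
  have hgl := Nat.gcd_mul_lcm (m + 2) (m + l - 1)
  obtain ⟨l', rfl⟩ : ∃ l', l = l' + 3 := ⟨l - 3, by omega⟩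
  have hpos : 0 < Nat.lcm (m + 2) (m + (l' + 3) - 1) :=
    Nat.pos_of_ne_zero (Nat.lcm_ne_zero (by omega) (by omega))
  have hE : j * ((m + 2) * (m + l' + 2)) =
      Nat.gcd (m + 2) (m + (l' + 3) - 1) * ((l' + 3) * (l' + 2)) := by
    rw [show l' + 3 - 1 = l' + 2 by omega] at hj
    rw [show m + l' + 2 = m + (l' + 3) - 1 by omega, ← hgl, hj]
    ring
  have hj0 : 1 ≤ j := Nat.pos_of_ne_zero (by
    rintro rfl
    rw [mul_zero] at hj
    simp at hj)
  have hg : Nat.gcd (m + 2) (m + (l' + 3) - 1) = 6 := by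
    have h6 := Nat.le_of_dvd (by norm_num) hg6
    by_contra hne
    have h2 : Nat.gcd (m + 2) (m + (l' + 3) - 1) ≤ 2 := by
      generalize Nat.gcd (m + 2) (m + (l' + 3) - 1) = g at *
      interval_cases g <;> omega
    nlinarith [Nat.mul_le_mul_right ((m + 2) * (m + l' + 2)) hj0,
      Nat.mul_le_mul_right ((l' + 3) * (l' + 2)) h2]
  rw [hg] at hE
  have hj2 : j ≤ 2 := by
    by_contra hc
    nlinarith [Nat.mul_le_mul_right ((m + 2) * (m + l' + 2)) (show 3 ≤ j by omega)]
  interval_cases j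
  · -- `m = 2 l - 2`, leading to `(4, 3)`
    have hm : m = 2 * l' + 4 := by
      rcases lt_trichotomy m (2 * l' + 4) with hlt | heq | hgt
      · nlinarith
      · exact heq
      · nlinarith
    subst hm
    have h6 : 6 ∣ 2 * l' + 4 + 2 := hg ▸ Nat.gcd_dvd_left _ _
    have h4 : l' + 4 ∣ 4 := dvd_of_prime_pow fun p e hp hq => by
      by_cases h5 : p ^ e ≤ 4
      · have := pow_pos hp.pos e
        interval_cases hqe : p ^ e
        · norm_num
        · norm_num
        · omega
        · norm_num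
      exfalso
      have hpm : p ≤ 2 * l' + 4 := by
        have := Nat.le_of_dvd (by omega)
          ((dvd_pow_self p (fun he => by rw [he, pow_zero] at h5; omega)).trans hq)
        omega
      have hc := hnc p e hp hpm
      obtain ⟨k, hk⟩ := hq
      obtain ⟨k', rfl⟩ : ∃ k', k = k' + 1 := ⟨k - 1, by
        rcases Nat.eq_zero_or_pos k with rfl | hk0
        · omega
        · omega⟩
      rw [Nat.mul_add, mul_one] at hk
      have h1 : (l' + 3) % p ^ e = p ^ e - 1 := by
        rw [show l' + 3 = (p ^ e - 1) + p ^ e * k' by omega, Nat.add_mul_mod_self_left,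
          Nat.mod_eq_of_lt (by omega)]
      have h2 : (2 * l' + 4) % p ^ e = p ^ e - 4 := by
        rw [show 2 * l' + 4 = (p ^ e - 4) + p ^ e * (2 * k' + 1) by
          rw [Nat.mul_add, mul_one, ← mul_assoc, mul_comm (p ^ e) 2, mul_assoc]; omega,
          Nat.add_mul_mod_self_left, Nat.mod_eq_of_lt (by omega)]
      omega
    have := Nat.le_of_dvd (by norm_num) h4
    omega
  · exfalso
    refine no_quadratic_family hl hlm hnc (hg ▸ Nat.gcd_dvd_right _ _)
      (hg ▸ Nat.gcd_dvd_left _ _) ?_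
    rw [show m + (l' + 3) - 1 = m + l' + 2 by omega, show l' + 3 - 1 = l' + 2 by omega]
    linarith

end CfsgLib.ChooseSmallPrime
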