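import Mathlib.GroupTheory.Perm.Cycle.Type
import Mathlib.GroupTheory.PGroup
import Mathlib.GroupTheory.SpecificGroups.Cyclic
import Mathlib.FieldTheory.Finite.Basic
import Mathlib.Algebra.Module.Equiv.Basic
import Mathlib.Tactic.FinCases

/-!
The automorphism group of the monomial group with determinant plus or minus one over `ZMod q`,
`q` a Fermat prime other than five, is a 2-group.
-/

set_option autoImplicit false
set_option linter.style.haveILetI false

namespace CfsgLib.MonomialAut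

/-- An odd prime order automorphism fixes a point of every invariant set of size prime to it. -/
theorem exists_fixed {T : Type*} [Group T] [Finite T] {r : ℕ} [Fact r.Prime] {σ : MulAut T}
    (hσ : σ ^ r = 1) (P : T → Prop) (hP : ∀ x, P (σ x) ↔ P x) (hc : ¬ r ∣ Nat.card {x // P x}) :
    ∃ x, P x ∧ σ x = x := by
  classical
  haveI := Fintype.ofFinite {x // P x}
  let π : Equiv.Perm {x // P x} := Equiv.Perm.subtypePerm σ.toEquiv hP
  have hπ : π ^ r = 1 := by
    refine Equiv.ext fun x => Subtype.ext ?_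
    have h : ∀ k : ℕ, ((π ^ k) x).1 = (σ ^ k) x.1 := by
      intro k
      induction k with
      | zero => rfl
      | succ k ih =>
        rw [pow_succ', Equiv.Perm.mul_apply, pow_succ', MulAut.mul_apply, ← ih]
        rfl
    rw [h, hσ]
    rfl
  obtain ⟨⟨x, hx⟩, hfx⟩ := Equiv.Perm.exists_fixed_point_of_prime (p := r) (n := 1)
    (σ := π) (by rwa [← Nat.card_eq_fintype_card]) (by rwa [pow_one])
  exact ⟨x, hx, congrArg Subtype.val hfx⟩

/-- A group whose automorphisms of odd prime order are trivial has a 2-group of automorphisms. -/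
theorem isPGroup_two_mulAut {T : Type*} [Group T] [Finite T]
    (h : ∀ (r : ℕ) [Fact r.Prime] (σ : MulAut T), r ≠ 2 → σ ^ r = 1 → σ = 1) :
    IsPGroup 2 (MulAut T) := by
  haveI : Finite (MulAut T) := Finite.of_injective (fun σ : MulAut T => (σ : T → T))
    DFunLike.coe_injective
  refine IsPGroup.of_card (n := (Nat.card (MulAut T)).primeFactorsList.length)
    (Nat.eq_prime_pow_of_unique_prime_dvd Nat.card_pos.ne' ?_)
  intro r hr hrd
  by_contra hne
  haveI : Fact r.Prime := ⟨hr⟩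
  obtain ⟨σ, hσ⟩ := exists_prime_orderOf_dvd_card' r hrd
  have h1 := h r σ hne (hσ ▸ pow_orderOf_eq_one σ)
  rw [h1, orderOf_one] at hσ
  exact hr.ne_one hσ.symm

variable {q : ℕ}

/-- The monomial map with entries `p`, interchanging the coordinates if `f`. -/
def mon (p : (ZMod q)ˣ × (ZMod q)ˣ) (f : Bool) :
    (Fin 2 → ZMod q) ≃ₗ[ZMod q] (Fin 2 → ZMod q) where
  toFun v := if f then ![(p.1 : ZMod q) * v 1, (p.2 : ZMod q) * v 0]
    else ![(p.1 : ZMod q) * v 0, (p.2 : ZMod q) * v 1]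
  invFun v := if f then ![((p.2⁻¹ : (ZMod q)ˣ) : ZMod q) * v 1, ((p.1⁻¹ : (ZMod q)ˣ) : ZMod q) * v 0]
    else ![((p.1⁻¹ : (ZMod q)ˣ) : ZMod q) * v 0, ((p.2⁻¹ : (ZMod q)ˣ) : ZMod q) * v 1]
  map_add' u v := by cases f <;> (funext i; fin_cases i <;> simp [mul_add])
  map_smul' c v := by cases f <;> (funext i; fin_cases i <;> simp [mul_left_comm])
  left_inv v := by cases f <;> (funext i; fin_cases i <;> simp)
  right_inv v := by cases f <;> (funext i; fin_cases i <;> simp)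

theorem mon_false_mul (a b : (ZMod q)ˣ × (ZMod q)ˣ) (f : Bool) :
    mon a false * mon b f = mon (a * b) f := by
  apply LinearEquiv.ext
  intro v
  cases f <;> (funext i; fin_cases i <;> simp [mon, mul_assoc])

theorem mon_true_mul (a b : (ZMod q)ˣ × (ZMod q)ˣ) (f : Bool) :
    mon a true * mon b f = mon (a.1 * b.2, a.2 * b.1) (!f) := by
  apply LinearEquiv.ext
  intro v
  cases f <;> (funext i; fin_cases i <;> simp [mon, mul_assoc])

theorem mon_one : mon (1 : (ZMod q)ˣ × (ZMod q)ˣ) false = 1 := by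
  apply LinearEquiv.ext
  intro v
  funext i
  fin_cases i <;> simp [mon]

theorem mon_pow (a : (ZMod q)ˣ × (ZMod q)ˣ) (k : ℕ) : mon a false ^ k = mon (a ^ k) false := by
  induction k with
  | zero => rw [pow_zero, pow_zero, mon_one]
  | succ k ih => rw [pow_succ, ih, mon_false_mul, pow_succ]

theorem mon_injective [Fact (1 < q)] {a b : (ZMod q)ˣ × (ZMod q)ˣ} {f g : Bool}
    (h : mon a f = mon b g) : a = b ∧ f = g := by
  have h0 := LinearEquiv.congr_fun h ![1, 0]
  have h1 := LinearEquiv.congr_fun h ![0, 1]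
  cases f <;> cases g <;> simp [mon] at h0 h1 <;>
    simp_all [Prod.ext_iff, Units.ext_iff]

variable {T : Subgroup ((Fin 2 → ZMod q) ≃ₗ[ZMod q] (Fin 2 → ZMod q))}

theorem model [Fact q.Prime]
    (hT : ∀ f, f ∈ T ↔ ∃ a s : ZMod q, a ≠ 0 ∧ (s = 1 ∨ s = -1) ∧
      ((∀ v, f v = ![a * v 0, s * a⁻¹ * v 1]) ∨ (∀ v, f v = ![s * a⁻¹ * v 1, a * v 0]))) :
    (∀ (p : (ZMod q)ˣ × (ZMod q)ˣ) (f : Bool), p.1 * p.2 = 1 ∨ p.1 * p.2 = -1 → mon p f ∈ T) ∧
    ∀ x ∈ T, ∃ p f, (p.1 * p.2 = 1 ∨ p.1 * p.2 = -1) ∧ x = mon p f := by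
  constructor
  · rintro ⟨a, b⟩ f h
    rw [hT]
    obtain ⟨s, hs, hab⟩ : ∃ s : ZMod q, (s = 1 ∨ s = -1) ∧ (a : ZMod q) * b = s :=
      ⟨_, h.imp (fun e => by rw [← Units.val_mul, e, Units.val_one])
        (fun e => by rw [← Units.val_mul, e, Units.val_neg, Units.val_one]), rfl⟩
    cases f
    · refine ⟨a, s, a.ne_zero, hs, Or.inl fun v => ?_⟩
      subst hab
      funext i
      fin_cases i <;> dsimp [mon]
      rw [mul_comm (a : ZMod q) (b : ZMod q), mul_inv_cancel_right₀ a.ne_zero]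
    · refine ⟨b, s, b.ne_zero, hs, Or.inr fun v => ?_⟩
      subst hab
      funext i
      fin_cases i <;> dsimp [mon]
      rw [mul_inv_cancel_right₀ b.ne_zero]
  · intro x hx
    obtain ⟨a, s, ha, hs, h⟩ := (hT x).1 hx
    have hs0 : s ≠ 0 := by rcases hs with rfl | rfl <;> simp
    let A : (ZMod q)ˣ := Units.mk0 a ha
    let B : (ZMod q)ˣ := Units.mk0 (s * a⁻¹) (mul_ne_zero hs0 (inv_ne_zero ha))
    have hAB : A * B = 1 ∨ A * B = -1 := by
      rcases hs with rfl | rfl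
      · exact Or.inl (Units.ext (by simp [A, B, ha]))
      · exact Or.inr (Units.ext (by simp [A, B, ha]))
    rcases h with h | h
    · exact ⟨(A, B), false, hAB, LinearEquiv.ext fun v => by rw [h]; rfl⟩
    · exact ⟨(B, A), true, by rwa [mul_comm], LinearEquiv.ext fun v => by rw [h]; rfl⟩

end CfsgLib.MonomialAut

namespace CfsgLib.MonomialAut

variable {q : ℕ}

/-- The core fixed-point argument, for `q = 2 ^ m + 1` with `3 ≤ m`. -/
theorem eq_one_of_large [Fact q.Prime] {m : ℕ} (hq : q = 2 ^ m + 1) (hm : 3 ≤ m)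
    {T : Subgroup ((Fin 2 → ZMod q) ≃ₗ[ZMod q] (Fin 2 → ZMod q))}
    (hT : ∀ f, f ∈ T ↔ ∃ a s : ZMod q, a ≠ 0 ∧ (s = 1 ∨ s = -1) ∧
      ((∀ v, f v = ![a * v 0, s * a⁻¹ * v 1]) ∨ (∀ v, f v = ![s * a⁻¹ * v 1, a * v 0])))
    (r : ℕ) [Fact r.Prime] (σ : MulAut T) (hr : r ≠ 2) (hσ : σ ^ r = 1) : σ = 1 := by
  classical
  haveI : Fact (1 < q) := ⟨(Fact.out : q.Prime).one_lt⟩
  haveI : Fact (Nat.Prime 2) := ⟨Nat.prime_two⟩
  haveI : Finite ((Fin 2 → ZMod q) ≃ₗ[ZMod q] (Fin 2 → ZMod q)) :=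
    Finite.of_injective (fun f => (f : (Fin 2 → ZMod q) → (Fin 2 → ZMod q))) DFunLike.coe_injective
  obtain ⟨hmem, hex⟩ := model hT
  have hpow2 : ∀ k : ℕ, ¬ r ∣ 2 ^ k := fun k h =>
    hr ((Nat.prime_dvd_prime_iff_eq (Fact.out : r.Prime) Nat.prime_two).1
      ((Fact.out : r.Prime).dvd_of_dvd_pow h))
  obtain ⟨n, rfl⟩ : ∃ n, m = n + 3 := ⟨m - 3, by omega⟩
  have hU : Nat.card (ZMod q)ˣ = 2 ^ (n + 3) := by
    rw [Nat.card_eq_fintype_card, ZMod.card_units q]
    generalize 2 ^ (n + 3) = K at *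
    omega
  have hU1 : ∀ a : (ZMod q)ˣ, a ^ 2 ^ (n + 3) = 1 := fun a => hU ▸ pow_card_eq_one'
  have heven : ∀ k, Even (2 ^ (k + 1)) := fun k => ⟨2 ^ k, by ring⟩
  have h11 : (-1 : (ZMod q)ˣ) ≠ 1 := by
    intro h
    have h2 : ((2 : ℕ) : ZMod q) = 0 := by
      have := congrArg (fun u : (ZMod q)ˣ => (u : ZMod q)) h
      simp only [Units.val_neg, Units.val_one] at this
      push_cast
      linear_combination -this
    rw [ZMod.natCast_eq_zero_iff] at h2
    have := Nat.le_of_dvd two_pos h2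
    have : 0 < 2 ^ (n + 1) := Nat.two_pow_pos _
    have : 2 ^ (n + 3) = 2 ^ (n + 1) * 4 := by ring
    omega
  -- generators of the units
  let gen : (ZMod q)ˣ → Prop := fun a => a ^ 2 ^ (n + 2) ≠ 1
  have hgen : ∀ a, gen a ↔ orderOf a = 2 ^ (n + 3) := fun a =>
    ⟨fun h => orderOf_eq_prime_pow h (hU1 a), fun h e => by
      have := orderOf_dvd_of_pow_eq_one e
      rw [h, Nat.pow_dvd_pow_iff_le_right (by norm_num)] at this
      omega⟩
  have hgencard : Nat.card {a : (ZMod q)ˣ // gen a} = 2 ^ (n + 2) := by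
    rw [Nat.card_eq_fintype_card, Fintype.card_subtype,
      show Finset.univ.filter gen = Finset.univ.filter (fun a => orderOf a = 2 ^ (n + 3)) from
        Finset.filter_congr (fun a _ => hgen a),
      IsCyclic.card_orderOf_eq_totient (by rw [← Nat.card_eq_fintype_card, hU]),
      Nat.totient_prime_pow Nat.prime_two (by omega)]
    simp
  -- first generator
  let P1 : T → Prop := fun x => x ^ 2 ^ (n + 2) ≠ 1
  have hP1 : ∀ x, P1 (σ x) ↔ P1 x := fun x => by
    simp only [P1, ne_eq, ← map_pow, map_eq_one_iff σ σ.injective]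
  have hP1' : ∀ (p : (ZMod q)ˣ × (ZMod q)ˣ) (f : Bool) (h : p.1 * p.2 = 1 ∨ p.1 * p.2 = -1),
      P1 ⟨mon p f, hmem p f h⟩ ↔ f = false ∧ gen p.1 := by
    intro p f h
    simp only [P1, ne_eq, Subtype.ext_iff, SubmonoidClass.coe_pow, OneMemClass.coe_one]
    have hp2 : ∀ k, p.1 ^ 2 ^ (k + 1) * p.2 ^ 2 ^ (k + 1) = 1 := fun k => by
      rw [← mul_pow]
      rcases h with h | h <;> rw [h]
      · rw [one_pow]
      · rw [(heven k).neg_one_pow]
    cases f
    · rw [mon_pow, ← mon_one]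
      refine ⟨fun hne => ⟨rfl, fun e => hne ?_⟩, fun hg e => hg.2 ?_⟩
      · congr 1
        refine Prod.ext e ?_
        have := hp2 (n + 1)
        rw [e, one_mul] at this
        exact this
      · exact congrArg Prod.fst (mon_injective e).1
    · refine ⟨fun hne => absurd ?_ hne, fun hg => absurd hg.1 (by decide)⟩
      rw [show (2 : ℕ) ^ (n + 2) = 2 * 2 ^ (n + 1) by ring, pow_mul, sq, mon_true_mul, Bool.not_true,
        mon_pow, ← mon_one]
      congr 1
      refine Prod.ext ?_ ?_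
      · exact (mul_pow _ _ _).trans (hp2 n)
      · exact (mul_pow _ _ _).trans ((mul_comm _ _).trans (hp2 n))
  have hc1 : Nat.card {x : T // P1 x} = 2 ^ (n + 3) := by
    let sgn : Bool → (ZMod q)ˣ := fun b => if b then 1 else -1
    have hs : ∀ b, sgn b = 1 ∨ sgn b = -1 := fun b => by cases b <;> simp [sgn]
    have hok : ∀ (a : (ZMod q)ˣ) b, a * (sgn b * a⁻¹) = 1 ∨ a * (sgn b * a⁻¹) = -1 := fun a b => by
      rw [mul_left_comm, mul_inv_cancel, mul_one]; exact hs b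
    let φ : {a : (ZMod q)ˣ // gen a} × Bool → {x : T // P1 x} := fun z =>
      ⟨⟨mon (z.1.1, sgn z.2 * z.1.1⁻¹) false, hmem _ _ (hok _ _)⟩,
        (hP1' _ _ (hok _ _)).2 ⟨rfl, z.1.2⟩⟩
    have hφ : Function.Bijective φ := by
      constructor
      · rintro ⟨⟨a, ha⟩, b⟩ ⟨⟨a', ha'⟩, b'⟩ h
        have h1 := (mon_injective (congrArg (fun y : {x : T // P1 x} => (y.1 : _)) h |>
          congrArg Subtype.val)).1
        simp only [Prod.mk.injEq] at h1
        obtain ⟨rfl, h1⟩ := h1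
        have h2 := mul_right_cancel h1
        cases b <;> cases b' <;> first | rfl | exact absurd h2 h11 | exact absurd h2.symm h11
      · rintro ⟨⟨x, hxT⟩, hx⟩
        obtain ⟨⟨a, b⟩, f, hab, rfl⟩ := hex x hxT
        obtain ⟨rfl, ha⟩ := (hP1' _ _ hab).1 hx
        rcases hab with hab | hab
        · refine ⟨(⟨a, ha⟩, true), Subtype.ext (Subtype.ext ?_)⟩
          simp only [φ, sgn]
          congr 2
          simpa using (eq_inv_of_mul_eq_one_right hab).symm
        · refine ⟨(⟨a, ha⟩, false), Subtype.ext (Subtype.ext ?_)⟩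
          simp only [φ, sgn]
          congr 2
          have : b = a⁻¹ * -1 := eq_inv_mul_of_mul_eq hab
          simpa [mul_comm] using this.symm
    rw [← Nat.card_congr (Equiv.ofBijective φ hφ), Nat.card_prod, hgencard,
      Nat.card_eq_fintype_card (α := Bool), Fintype.card_bool]
    ring
  obtain ⟨⟨g, hgT⟩, hg, hgfix⟩ := exists_fixed hσ P1 hP1 (hc1 ▸ hpow2 _)
  obtain ⟨⟨w, v⟩, f, hwv, rfl⟩ := hex g hgT
  obtain ⟨rfl, hw⟩ := (hP1' _ _ hwv).1 hg
  set G : T := ⟨mon (w, v) false, hgT⟩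
  have hvw : v ≠ w := by
    rintro rfl
    apply hw
    change v ^ 2 ^ (n + 2) = 1
    rw [show (2 : ℕ) ^ (n + 2) = 2 * 2 ^ (n + 1) by ring, pow_mul, sq]
    rcases hwv with h | h <;> rw [h]
    · rw [one_pow]
    · rw [(heven n).neg_one_pow]
  have hcomm : ∀ x, Commute (σ x) G ↔ Commute x G := fun x => by
    constructor
    · intro h
      apply σ.injective
      rw [map_mul, map_mul, hgfix]
      exact h
    · intro h
      have := congrArg σ h.eq
      rwa [map_mul, map_mul, hgfix] at this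
  have hG : ∀ (p : (ZMod q)ˣ × (ZMod q)ˣ) (f : Bool) (h : p.1 * p.2 = 1 ∨ p.1 * p.2 = -1),
      Commute (⟨mon p f, hmem p f h⟩ : T) G ↔ f = false := by
    intro p f h
    rw [commute_iff_eq, Subtype.ext_iff]
    cases f
    · simp only [G, Subgroup.coe_mul, mon_false_mul, mul_comm p]
    · simp only [G, Subgroup.coe_mul, mon_false_mul, mon_true_mul, Bool.not_false]
      refine ⟨fun e => absurd ?_ hvw, fun e => absurd e (by decide)⟩
      have := congrArg Prod.fst (mon_injective e).1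
      simp only [Prod.fst_mul] at this
      rw [mul_comm w] at this
      exact mul_left_cancel this
  have hsq : ∀ x, (σ x) ^ 2 = 1 ↔ x ^ 2 = 1 := fun x => by
    rw [← map_pow, map_eq_one_iff σ σ.injective]
  -- the two diagonal non-central involutions
  have hd1 : ((1 : (ZMod q)ˣ), (-1 : (ZMod q)ˣ)).1 * ((1 : (ZMod q)ˣ), (-1 : (ZMod q)ˣ)).2 = 1 ∨
      ((1 : (ZMod q)ˣ), (-1 : (ZMod q)ˣ)).1 * ((1 : (ZMod q)ˣ), (-1 : (ZMod q)ˣ)).2 = -1 :=
    Or.inr (one_mul _)
  have hd2 : ((-1 : (ZMod q)ˣ), (1 : (ZMod q)ˣ)).1 * ((-1 : (ZMod q)ˣ), (1 : (ZMod q)ˣ)).2 = 1 ∨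
      ((-1 : (ZMod q)ˣ), (1 : (ZMod q)ˣ)).1 * ((-1 : (ZMod q)ˣ), (1 : (ZMod q)ˣ)).2 = -1 :=
    Or.inr (mul_one _)
  set d : T := ⟨mon (1, -1) false, hmem _ _ hd1⟩
  set d' : T := ⟨mon (-1, 1) false, hmem _ _ hd2⟩
  let P2 : T → Prop := fun x =>
    x ^ 2 = 1 ∧ Commute x G ∧ x ≠ 1 ∧ x ≠ G ^ 2 ^ (n + 2)
  have hP2 : ∀ x, P2 (σ x) ↔ P2 x := fun x => by
    have e : σ (G ^ 2 ^ (n + 2)) = G ^ 2 ^ (n + 2) := by rw [map_pow, hgfix]
    simp only [P2, hsq, hcomm, ne_eq, map_eq_one_iff σ σ.injective]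
    rw [show σ x = G ^ 2 ^ (n + 2) ↔ x = G ^ 2 ^ (n + 2) from
      ⟨fun h => σ.injective (h.trans e.symm), fun h => h.symm ▸ e⟩]
  have hsqrt : ∀ a : (ZMod q)ˣ, a * a = 1 → a = 1 ∨ a = -1 := fun a h =>
    Units.inv_eq_self_iff a |>.1 (inv_eq_of_mul_eq_one_right h)
  have hwhalf : w ^ 2 ^ (n + 2) = -1 := by
    refine (hsqrt _ ?_).resolve_left hw
    rw [← sq, ← pow_mul, ← pow_succ]
    exact hU1 w
  have hvhalf : v ^ 2 ^ (n + 2) = -1 := by
    have h : w ^ 2 ^ (n + 2) * v ^ 2 ^ (n + 2) = 1 := by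
      rw [← mul_pow]
      rcases hwv with h | h <;> rw [h]
      · rw [one_pow]
      · rw [(heven (n + 1)).neg_one_pow]
    rw [hwhalf, neg_one_mul, neg_eq_iff_eq_neg] at h
    exact h
  have hGhalf : G ^ 2 ^ (n + 2) = ⟨mon (-1, -1) false, hmem _ _ (Or.inl (by simp))⟩ := by
    refine Subtype.ext ?_
    simp only [G, SubmonoidClass.coe_pow, mon_pow, Prod.pow_mk, hwhalf, hvhalf]
  have hP2' : ∀ x, P2 x ↔ x = d ∨ x = d' := by
    intro x
    constructor
    · obtain ⟨x, hxT⟩ := x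
      obtain ⟨⟨a, b⟩, f, hab, rfl⟩ := hex x hxT
      rintro ⟨h1, h2, h3, h4⟩
      obtain rfl := (hG _ _ hab).1 h2
      have h1' := (mon_injective (((mon_pow (a, b) 2).symm.trans
        (congrArg Subtype.val h1)).trans mon_one.symm)).1
      simp only [sq, Prod.mk_mul_mk, Prod.mk_eq_one] at h1'
      rw [hGhalf] at h4
      rcases hsqrt a h1'.1 with rfl | rfl <;> rcases hsqrt b h1'.2 with rfl | rfl
      · exact absurd (Subtype.ext mon_one) h3
      · exact Or.inl rfl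
      · exact Or.inr rfl
      · exact absurd rfl h4
    · rintro (rfl | rfl)
      all_goals
        refine ⟨Subtype.ext ?_, (hG _ _ (by assumption)).2 rfl, fun e => h11 ?_, fun e => h11 ?_⟩
        · simp only [d, d', SubmonoidClass.coe_pow, mon_pow, Prod.pow_mk, one_pow, neg_one_sq,
            ← Prod.one_eq_mk, mon_one, OneMemClass.coe_one]
        · have := (mon_injective ((congrArg Subtype.val e).trans mon_one.symm)).1
          simp only [Prod.mk_eq_one] at this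
          first | exact this.1 | exact this.2
        · rw [hGhalf] at e
          have := (mon_injective (congrArg Subtype.val e)).1
          simp only [Prod.mk.injEq] at this
          first | exact this.1.symm | exact this.2.symm
  have hdd : d ≠ d' := fun e => h11 (congrArg Prod.fst (mon_injective (congrArg Subtype.val e)).1).symm
  have hc2 : Nat.card {x : T // P2 x} = 2 := by
    rw [Nat.card_congr (Equiv.subtypeEquivRight hP2')]
    have : {x : T | x = d ∨ x = d'} = ({d, d'} : Set T) := by ext x; simp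
    exact (congrArg (fun s : Set T => Nat.card s) this).trans
      ((Nat.card_coe_set_eq _).trans (Set.ncard_pair hdd))
  obtain ⟨x, hx, hxfix⟩ := exists_fixed hσ P2 hP2 (by rw [hc2]; simpa using hpow2 1)
  have hdfix : σ d = d ∧ σ d' = d' := by
    rcases (hP2' x).1 hx with rfl | rfl
    · refine ⟨hxfix, ?_⟩
      rcases (hP2' _).1 ((hP2 d').2 ((hP2' d').2 (Or.inr rfl))) with h | h
      · exact absurd (σ.injective (hxfix.trans h.symm)) hdd
      · exact h
    · refine ⟨?_, hxfix⟩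
      rcases (hP2' _).1 ((hP2 d).2 ((hP2' d).2 (Or.inl rfl))) with h | h
      · exact h
      · exact absurd (σ.injective (h.trans hxfix.symm)) hdd
  -- an involution outside the diagonal
  let P3 : T → Prop := fun x => x ^ 2 = 1 ∧ ¬ Commute x G
  have hP3 : ∀ x, P3 (σ x) ↔ P3 x := fun x => by simp only [P3, hsq, hcomm]
  have hc3 : Nat.card {x : T // P3 x} = 2 ^ (n + 3) := by
    have hok : ∀ a : (ZMod q)ˣ, a * a⁻¹ = 1 ∨ a * a⁻¹ = -1 := fun a => Or.inl (mul_inv_cancel a)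
    let φ : (ZMod q)ˣ → {x : T // P3 x} := fun a =>
      ⟨⟨mon (a, a⁻¹) true, hmem _ _ (hok a)⟩, Subtype.ext (by
        simp [sq, mon_true_mul, ← Prod.one_eq_mk, mon_one]),
        fun h => absurd ((hG _ _ (hok a)).1 h) (by decide)⟩
    have hφ : Function.Bijective φ := by
      constructor
      · intro a b h
        exact congrArg Prod.fst (mon_injective (congrArg Subtype.val (congrArg Subtype.val h))).1
      · rintro ⟨⟨x, hxT⟩, h1, h2⟩
        obtain ⟨⟨a, b⟩, f, hab, rfl⟩ := hex x hxT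
        obtain rfl : f = true := by
          by_contra hf
          exact h2 ((hG _ _ hab).2 (by simpa using hf))
        have h1' : mon (a, b) true * mon (a, b) true = 1 := by
          rw [← sq]; exact congrArg Subtype.val h1
        rw [mon_true_mul, Bool.not_true, ← mon_one] at h1'
        have := congrArg Prod.fst (mon_injective h1').1
        refine ⟨a, Subtype.ext (Subtype.ext ?_)⟩
        simp only [φ]
        obtain rfl : b = a⁻¹ := eq_inv_of_mul_eq_one_right this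
        rfl
    rw [← Nat.card_congr (Equiv.ofBijective φ hφ), hU]
  obtain ⟨⟨t, htT⟩, ht, htfix⟩ := exists_fixed hσ P3 hP3 (hc3 ▸ hpow2 _)
  obtain ⟨⟨c, e⟩, f, hce, rfl⟩ := hex t htT
  obtain rfl : f = true := by
    by_contra hf
    exact ht.2 ((hG _ _ hce).2 (by simpa using hf))
  -- everything is generated by fixed elements
  have hzp : ∀ a : (ZMod q)ˣ, ∃ k : ℕ, w ^ k = a := fun a => by
    have htop : Submonoid.powers w = ⊤ := by
      have hw' := (hgen w).1 hw
      have h1 : Subgroup.zpowers w = ⊤ :=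
        Subgroup.eq_top_of_card_eq _ (by rw [Nat.card_zpowers, hw', hU])
      ext z
      simp only [Submonoid.mem_top, mem_powers_iff_mem_zpowers, h1, Subgroup.mem_top]
    exact Submonoid.mem_powers_iff _ _ |>.1 (htop ▸ Submonoid.mem_top a)
  have hdiag : ∀ (p : (ZMod q)ˣ × (ZMod q)ˣ) (h : p.1 * p.2 = 1 ∨ p.1 * p.2 = -1),
      σ ⟨mon p false, hmem p false h⟩ = ⟨mon p false, hmem p false h⟩ := by
    rintro ⟨a, b⟩ h
    obtain ⟨k, rfl⟩ := hzp a
    have hprod : v ^ k = b ∨ v ^ k = -b := by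
      have h2 : w ^ k * v ^ k = 1 ∨ w ^ k * v ^ k = -1 := by
        rw [← mul_pow]
        rcases hwv with e' | e' <;> rw [e']
        · exact Or.inl (one_pow k)
        · exact neg_one_pow_eq_or _ k
      rcases h with h | h <;> rcases h2 with h2 | h2
      · exact Or.inl (mul_left_cancel (h2.trans h.symm))
      · exact Or.inr (mul_left_cancel (h2.trans (by rw [mul_neg, h])))
      · exact Or.inr (mul_left_cancel (h2.trans (by rw [mul_neg, h, neg_neg])))
      · exact Or.inl (mul_left_cancel (h2.trans h.symm))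
    rcases hprod with hv | hv
    · have : (⟨mon (w ^ k, b) false, hmem _ false h⟩ : T) = G ^ k :=
        Subtype.ext (by simp [G, mon_pow, hv])
      rw [this, map_pow, hgfix]
    · have : (⟨mon (w ^ k, b) false, hmem _ false h⟩ : T) = G ^ k * d :=
        Subtype.ext (by simp [G, d, mon_pow, mon_false_mul, hv])
      rw [this, map_mul, map_pow, hgfix, hdfix.1]
  apply MulEquiv.ext
  rintro ⟨x, hxT⟩
  obtain ⟨⟨a, b⟩, f, hab, rfl⟩ := hex x hxT
  cases f
  · exact hdiag _ hab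
  · have hok : (a * c⁻¹) * (b * e⁻¹) = 1 ∨ (a * c⁻¹) * (b * e⁻¹) = -1 := by
      rw [mul_mul_mul_comm, ← mul_inv]
      rcases hab with h | h <;> rcases hce with h' | h' <;> simp [h, h']
    have : (⟨mon (a, b) true, hxT⟩ : T) =
        ⟨mon (a * c⁻¹, b * e⁻¹) false, hmem (a * c⁻¹, b * e⁻¹) false hok⟩ *
          ⟨mon (c, e) true, htT⟩ :=
      Subtype.ext (by simp [mon_false_mul])
    rw [this, map_mul, hdiag _ hok, htfix]
    rfl

end CfsgLib.MonomialAut

namespace CfsgLib.MonomialAut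

/-- The product of the coordinates in `mon`. -/
def mulData {U : Type*} [Mul U] (x y : (U × U) × Bool) : (U × U) × Bool :=
  if x.2 then ((x.1.1 * y.1.2, x.1.2 * y.1.1), !y.2) else (x.1 * y.1, y.2)

theorem mon_mul {q : ℕ} (x y : ((ZMod q)ˣ × (ZMod q)ˣ) × Bool) :
    mon x.1 x.2 * mon y.1 y.2 = mon (mulData x y).1 (mulData x y).2 := by
  obtain ⟨p, f⟩ := x
  cases f
  · exact mon_false_mul _ _ _
  · exact mon_true_mul _ _ _

set_option synthInstance.maxSize 2000 in
theorem three_data :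
    (∀ p : (ZMod 3)ˣ × (ZMod 3)ˣ, p.1 * p.2 = 1 ∨ p.1 * p.2 = -1) ∧
    Nat.card {z : ((ZMod 3)ˣ × (ZMod 3)ˣ) × Bool // mulData z z ≠ (1, false)} = 2 ∧
    (∀ z₀ : ((ZMod 3)ˣ × (ZMod 3)ˣ) × Bool, mulData z₀ z₀ ≠ (1, false) →
      Nat.card {z : ((ZMod 3)ˣ × (ZMod 3)ˣ) × Bool //
        mulData z z = (1, false) ∧ mulData z z₀ ≠ mulData z₀ z} = 2 ^ 2) ∧
    (∀ z₀ z₁ : ((ZMod 3)ˣ × (ZMod 3)ˣ) × Bool, mulData z₀ z₀ ≠ (1, false) →
      mulData z₁ z₁ = (1, false) ∧ mulData z₁ z₀ ≠ mulData z₀ z₁ → ∀ z, z = (1, false) ∨ z = z₀ ∨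
        z = mulData z₀ z₀ ∨ z = mulData z₀ (mulData z₀ z₀) ∨ z = z₁ ∨ z = mulData z₁ z₀ ∨
        z = mulData z₁ (mulData z₀ z₀) ∨ z = mulData z₁ (mulData z₀ (mulData z₀ z₀))) := by
  refine ⟨by decide +kernel, ?_, ?_, by decide +kernel⟩ <;> simp only [Nat.card_eq_fintype_card] <;>
    decide +kernel

/-- The case `q = 3`: a dihedral group of order eight. -/
theorem eq_one_of_three
    {T : Subgroup ((Fin 2 → ZMod 3) ≃ₗ[ZMod 3] (Fin 2 → ZMod 3))}
    (hT : ∀ f, f ∈ T ↔ ∃ a s : ZMod 3, a ≠ 0 ∧ (s = 1 ∨ s = -1) ∧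
      ((∀ v, f v = ![a * v 0, s * a⁻¹ * v 1]) ∨ (∀ v, f v = ![s * a⁻¹ * v 1, a * v 0])))
    (r : ℕ) [Fact r.Prime] (σ : MulAut T) (hr : r ≠ 2) (hσ : σ ^ r = 1) : σ = 1 := by
  classical
  haveI : Fact (Nat.Prime 3) := ⟨Nat.prime_three⟩
  haveI : Fact (1 < 3) := ⟨by norm_num⟩
  haveI : Finite ((Fin 2 → ZMod 3) ≃ₗ[ZMod 3] (Fin 2 → ZMod 3)) :=
    Finite.of_injective (fun f => (f : (Fin 2 → ZMod 3) → (Fin 2 → ZMod 3))) DFunLike.coe_injective
  obtain ⟨hmem, hex⟩ := model hT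
  obtain ⟨hall, hd1, hd3, hgen⟩ := three_data
  let e : ((ZMod 3)ˣ × (ZMod 3)ˣ) × Bool → T := fun z => ⟨mon z.1 z.2, hmem _ _ (hall _)⟩
  have he : Function.Bijective e := by
    constructor
    · intro a b h
      obtain ⟨h1, h2⟩ := mon_injective (congrArg Subtype.val h)
      exact Prod.ext h1 h2
    · rintro ⟨x, hx⟩
      obtain ⟨p, f, -, rfl⟩ := hex x hx
      exact ⟨(p, f), rfl⟩
  have hmul : ∀ a b, e a * e b = e (mulData a b) := fun a b => Subtype.ext (mon_mul a b)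
  let one : ((ZMod 3)ˣ × (ZMod 3)ˣ) × Bool := (1, false)
  have hone : e one = 1 := Subtype.ext mon_one
  have hpow2 : ∀ k : ℕ, ¬ r ∣ 2 ^ k := fun k h =>
    hr ((Nat.prime_dvd_prime_iff_eq (Fact.out : r.Prime) Nat.prime_two).1
      ((Fact.out : r.Prime).dvd_of_dvd_pow h))
  -- an element of order four
  let P1 : T → Prop := fun x => x * x ≠ 1
  have hP1 : ∀ x, P1 (σ x) ↔ P1 x := fun x => by
    simp only [P1, ne_eq, ← map_mul, map_eq_one_iff σ σ.injective]
  have hP1' : ∀ z, P1 (e z) ↔ mulData z z ≠ one := fun z => by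
    simp only [P1, ne_eq, hmul, ← hone, he.1.eq_iff]
  have hc1 : Nat.card {x : T // P1 x} = 2 := by
    rw [← Nat.card_congr (((Equiv.ofBijective e he).subtypeEquiv (q := P1)
      (p := fun z => mulData z z ≠ one) fun z => (hP1' z).symm))]
    exact hd1
  obtain ⟨g, hg, hgfix⟩ := exists_fixed hσ P1 hP1 (by rw [hc1]; simpa using hpow2 1)
  obtain ⟨z₀, rfl⟩ := he.2 g
  -- an involution not commuting with it
  let P3 : T → Prop := fun x => x * x = 1 ∧ x * e z₀ ≠ e z₀ * x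
  have hP3 : ∀ x, P3 (σ x) ↔ P3 x := fun x => by
    simp only [P3, ← map_mul, map_eq_one_iff σ σ.injective]
    conv_lhs => rw [← hgfix, ← map_mul, ← map_mul]
    simp only [ne_eq, EmbeddingLike.apply_eq_iff_eq]
  have hP3' : ∀ z, P3 (e z) ↔ mulData z z = one ∧ mulData z z₀ ≠ mulData z₀ z := fun z => by
    simp only [P3, ne_eq, hmul, ← hone, he.1.eq_iff]
  have hz₀ := (hP1' z₀).1 hg
  have hc3 : Nat.card {x : T // P3 x} = 2 ^ 2 := by
    rw [← Nat.card_congr (((Equiv.ofBijective e he).subtypeEquiv (q := P3)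
      (p := fun z => mulData z z = one ∧ mulData z z₀ ≠ mulData z₀ z) fun z => (hP3' z).symm))]
    exact hd3 z₀ hz₀
  obtain ⟨t, ht, htfix⟩ := exists_fixed hσ P3 hP3 (hc3 ▸ hpow2 2)
  obtain ⟨z₁, rfl⟩ := he.2 t
  have hz₁ := (hP3' z₁).1 ht
  apply MulEquiv.ext
  intro x
  obtain ⟨z, rfl⟩ := he.2 x
  rcases hgen z₀ z₁ hz₀ hz₁ z with h | h | h | h | h | h | h | h <;> subst h <;>
    simp only [show e (1, false) = 1 from hone, ← hmul, map_mul, hgfix, htfix, map_one,
      MulAut.one_apply]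

/-- The case `q = 2`: a group of order two. -/
theorem eq_one_of_two
    {T : Subgroup ((Fin 2 → ZMod 2) ≃ₗ[ZMod 2] (Fin 2 → ZMod 2))}
    (hT : ∀ f, f ∈ T ↔ ∃ a s : ZMod 2, a ≠ 0 ∧ (s = 1 ∨ s = -1) ∧
      ((∀ v, f v = ![a * v 0, s * a⁻¹ * v 1]) ∨ (∀ v, f v = ![s * a⁻¹ * v 1, a * v 0])))
    (σ : MulAut T) : σ = 1 := by
  haveI : Fact (Nat.Prime 2) := ⟨Nat.prime_two⟩
  obtain ⟨-, hex⟩ := model hT
  have hsub : ∀ p : (ZMod 2)ˣ × (ZMod 2)ˣ, p = 1 := fun p => Subsingleton.elim _ _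
  have key : ∀ x y : T, x ≠ 1 → y ≠ 1 → x = y := by
    rintro ⟨x, hx⟩ ⟨y, hy⟩ hx1 hy1
    obtain ⟨p, f, -, rfl⟩ := hex x hx
    obtain ⟨p', f', -, rfl⟩ := hex y hy
    obtain rfl := hsub p
    obtain rfl := hsub p'
    cases f
    · exact absurd (Subtype.ext mon_one) hx1
    cases f'
    · exact absurd (Subtype.ext mon_one) hy1
    rfl
  apply MulEquiv.ext
  intro x
  by_cases hx : x = 1
  · rw [hx, map_one, map_one]
  · exact key _ _ (fun h => hx (σ.injective (h.trans (map_one σ).symm))) hx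

end CfsgLib.MonomialAut
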