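import Mathlib

/-!
Primitivity criteria: affine groups and Higman's orbital graph criterion.
-/

set_option autoImplicit false

namespace CfsgLib.Perm57

open MulAction
open scoped Pointwise

/-- An affine group is primitive iff its linear part is irreducible. -/
theorem affine_primitive_iff {p : ℕ} [Fact p.Prime] {V : Type*} [AddCommGroup V]
    [Module (ZMod p) V] [Finite V] [Nontrivial V] (G₀ : Subgroup (V ≃ₗ[ZMod p] V))
    (G : Subgroup (Equiv.Perm V))
    (hG : ∀ σ : Equiv.Perm V, σ ∈ G ↔ ∃ g ∈ G₀, ∃ b : V, ∀ x : V,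
      σ x = (g : V ≃ₗ[ZMod p] V) x + b) :
    MulAction.IsPreprimitive G V ↔ ∀ W : Submodule (ZMod p) V,
      (∀ g ∈ G₀, ∀ v ∈ W, (g : V ≃ₗ[ZMod p] V) v ∈ W) → W = ⊥ ∨ W = ⊤ := by
  have htrans : ∀ b : V, (Equiv.addRight b : Equiv.Perm V) ∈ G := fun b =>
    (hG _).mpr ⟨1, G₀.one_mem, b, fun x => rfl⟩
  have hlin : ∀ g ∈ G₀, (g : V ≃ₗ[ZMod p] V).toEquiv ∈ G := fun g hg =>
    (hG _).mpr ⟨g, hg, 0, fun x => (add_zero _).symm⟩
  haveI : IsPretransitive G V := ⟨fun x y => ⟨⟨_, htrans (y - x)⟩, by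
    show x + (y - x) = y
    abel⟩⟩
  constructor
  · intro hprim W hW
    have hB : IsBlock G (W : Set V) := by
      rw [isBlock_iff_smul_eq_of_nonempty]
      intro σ hne
      obtain ⟨y, ⟨x, hx, rfl⟩, hy⟩ := hne
      obtain ⟨g, hg, b, hσ⟩ := (hG _).mp σ.2
      have hy' : (g : V ≃ₗ[ZMod p] V) x + b ∈ W := (hσ x) ▸ hy
      have hb : b ∈ W := (W.add_mem_iff_right (hW g hg x hx)).mp hy'
      apply Set.eq_of_subset_of_ncard_le _ (by rw [Set.ncard_smul_set])
      rintro _ ⟨z, hz, rfl⟩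
      show (σ : Equiv.Perm V) z ∈ W
      rw [hσ z]
      exact W.add_mem (hW g hg z hz) hb
    rcases hprim.isTrivialBlock_of_isBlock hB with h | h
    · left
      rw [Submodule.eq_bot_iff]
      exact fun x hx => h hx W.zero_mem
    · right
      exact SetLike.ext' (h.trans Submodule.top_coe.symm)
  · intro h
    apply IsPreprimitive.of_isTrivialBlock_base (0 : V)
    intro B h0 hB
    have hfix : ∀ σ : G, (σ : Equiv.Perm V) 0 ∈ B → σ • B = B := fun σ hσ =>
      isBlock_iff_smul_eq_of_nonempty.mp hB ⟨_, ⟨0, h0, rfl⟩, hσ⟩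
    have hadd : ∀ x ∈ B, ∀ y ∈ B, x + y ∈ B := by
      intro x hx y hy
      have h1 := hfix ⟨_, htrans y⟩ (by show 0 + y ∈ B; rw [zero_add]; exact hy)
      rw [← h1]
      exact ⟨x, hx, rfl⟩
    have hneg : ∀ x ∈ B, -x ∈ B := by
      intro x hx
      have h1 := hfix ⟨_, htrans x⟩ (by show 0 + x ∈ B; rw [zero_add]; exact hx)
      rw [← h1] at h0
      obtain ⟨z, hz, hzx⟩ := h0
      have hz' : z + x = 0 := hzx
      rwa [← eq_neg_of_add_eq_zero_left hz']
    let S : AddSubgroup V :=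
      { carrier := B
        add_mem' := fun {a b} ha hb => hadd a ha b hb
        zero_mem' := h0
        neg_mem' := fun {a} ha => hneg a ha }
    have hinv : ∀ g ∈ G₀, ∀ v ∈ AddSubgroup.toZModSubmodule p S,
        (g : V ≃ₗ[ZMod p] V) v ∈ AddSubgroup.toZModSubmodule p S := by
      intro g hg v hv
      have h1 := hfix ⟨_, hlin g hg⟩ (by
        show (g : V ≃ₗ[ZMod p] V) 0 ∈ B
        rw [map_zero]; exact h0)
      show (g : V ≃ₗ[ZMod p] V) v ∈ B
      rw [← h1]
      exact ⟨v, hv, rfl⟩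
    rcases h (AddSubgroup.toZModSubmodule p S) hinv with hW | hW
    · left
      intro x hx y hy
      have hz : ∀ z ∈ B, z = 0 := fun z hz => by
        have : z ∈ AddSubgroup.toZModSubmodule p S := hz
        rwa [hW, Submodule.mem_bot] at this
      rw [hz x hx, hz y hy]
    · right
      ext x
      simp only [Set.mem_univ, iff_true]
      have : x ∈ AddSubgroup.toZModSubmodule p S := hW ▸ Submodule.mem_top
      exact this

/-- Higman's criterion. -/
theorem higman_primitive_iff {G : Type*} [Group G] {Ω : Type*} [Finite Ω] [MulAction G Ω]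
    [MulAction.IsPretransitive G Ω] [Nontrivial Ω] :
    MulAction.IsPreprimitive G Ω ↔ ∀ a b : Ω, a ≠ b →
      (SimpleGraph.fromRel fun x y : Ω => ∃ g : G, g • a = x ∧ g • b = y).Connected := by
  constructor
  · intro hprim a b hab
    set Γ := SimpleGraph.fromRel fun x y : Ω => ∃ g : G, g • a = x ∧ g • b = y
    have hadj : ∀ (g : G) (x y : Ω), Γ.Adj x y → Γ.Adj (g • x) (g • y) := by
      rintro g x y ⟨hne, h⟩
      refine ⟨fun h' => hne (smul_left_cancel g h'), ?_⟩
      rcases h with ⟨k, h1, h2⟩ | ⟨k, h1, h2⟩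
      · exact Or.inl ⟨g * k, by rw [mul_smul, h1], by rw [mul_smul, h2]⟩
      · exact Or.inr ⟨g * k, by rw [mul_smul, h1], by rw [mul_smul, h2]⟩
    have hreach : ∀ (g : G) (x y : Ω), Γ.Reachable x y → Γ.Reachable (g • x) (g • y) :=
      fun g x y h => h.map ⟨fun z => g • z, fun {u v} => hadj g u v⟩
    have hB : IsBlock G {y | Γ.Reachable a y} := by
      rw [isBlock_iff_smul_eq_of_nonempty]
      rintro g ⟨_, ⟨x, hx, rfl⟩, hgx⟩
      have hga : Γ.Reachable a (g • a) := hgx.trans (hreach g a x hx).symm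
      ext y
      constructor
      · rintro ⟨z, hz, rfl⟩
        exact hga.trans (hreach g a z hz)
      · intro hy
        refine ⟨g⁻¹ • y, ?_, smul_inv_smul g y⟩
        have := hreach g⁻¹ _ _ (hga.symm.trans hy)
        rwa [inv_smul_smul] at this
    haveI : Nonempty Ω := ⟨a⟩
    rcases hprim.isTrivialBlock_of_isBlock hB with h | h
    · have hba : Γ.Adj a b := ⟨hab, Or.inl ⟨1, one_smul _ _, one_smul _ _⟩⟩
      exact absurd (h (SimpleGraph.Reachable.refl a) hba.reachable) hab
    · exact ⟨fun x y => by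
        have hx : x ∈ {y | Γ.Reachable a y} := h ▸ Set.mem_univ x
        have hy : y ∈ {y | Γ.Reachable a y} := h ▸ Set.mem_univ y
        exact hx.symm.trans hy⟩
  · intro h
    refine IsPreprimitive.mk fun {B} hB => ?_
    rw [IsTrivialBlock, or_iff_not_imp_left]
    intro hns
    obtain ⟨a, ha, b, hb, hab⟩ := Set.not_subsingleton_iff.mp hns
    rw [Set.eq_univ_iff_forall]
    intro y
    obtain ⟨w⟩ := (h a b hab).preconnected a y
    have key : ∀ {u v : Ω}, (SimpleGraph.fromRel fun x y : Ω =>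
        ∃ g : G, g • a = x ∧ g • b = y).Walk u v → u ∈ B → v ∈ B := by
      intro u v w
      induction w with
      | nil => exact id
      | cons hadj _ ih =>
        intro hu
        apply ih
        obtain ⟨-, ⟨g, h1, h2⟩ | ⟨g, h1, h2⟩⟩ := hadj
        · have := isBlock_iff_smul_eq_of_nonempty.mp hB
            (g := g) ⟨g • a, ⟨a, ha, rfl⟩, h1 ▸ hu⟩
          rw [← this, ← h2]
          exact ⟨b, hb, rfl⟩
        · have := isBlock_iff_smul_eq_of_nonempty.mp hB
            (g := g) ⟨g • b, ⟨b, hb, rfl⟩, h2 ▸ hu⟩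
          rw [← this, ← h1]
          exact ⟨a, ha, rfl⟩
    exact key w ha

end CfsgLib.Perm57
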