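import Mathlib
import Cfsg.Agent.Chars.Apps.FrobeniusKernel
import Cfsg.Agent.Frobenius.Complement
import Cfsg.Agent.PermGroups.RegularNormal

/-!
Zassenhaus-type groups with a regular normal subgroup have degree `2 ^ p` with `p` prime.
-/

set_option autoImplicit false
set_option linter.style.haveILetI false

namespace CfsgLib.Perm57

open MulAction

section linear

variable {H V : Type*} [Group H] [Finite H] [AddCommGroup V] [Module (ZMod 2) V] [Finite V]
  [Nontrivial V] (ρ : Representation (ZMod 2) H V)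

/-- In a Z-group a fixed-point-free automorphism forces cyclicity. -/
theorem isCyclic_of_fpf {F : Subgroup H} [hF : F.Normal] [IsZGroup F] {k : H}
    (hfree : ∀ f ∈ F, k * f = f * k → f = 1) : IsCyclic F := by
  haveI : IsCyclic (commutator F) := (inferInstance : IsZGroup F).isCyclic_commutator
  have hpow : ∀ x : F, ∃ r : ℤ, ∀ d ∈ commutator F, x * d * x⁻¹ = d ^ r := by
    intro x
    obtain ⟨r, hr⟩ := MonoidHom.map_cyclic
      ((MulAut.conjNormal (H := commutator F) x).toMonoidHom)
    refine ⟨r, fun d hd => ?_⟩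
    have := congrArg (fun y : commutator F => (y : F)) (hr ⟨d, hd⟩)
    simpa [MulAut.conjNormal_apply] using this
  let kc : F ≃* F := MulAut.conjNormal (H := F) k
  have hkc : ∀ x : F, ((kc x : F) : H) = k * x * k⁻¹ := fun x => MulAut.conjNormal_apply k x
  have hkcD : ∀ d ∈ commutator F, kc.symm d ∈ commutator F := by
    intro d hd
    have h : (commutator F).map kc.symm.toMonoidHom = commutator F :=
      Subgroup.characteristic_iff_map_eq.mp inferInstance kc.symm
    rw [← h]
    exact ⟨d, hd, rfl⟩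
  let θ : F → F := fun x => x⁻¹ * kc x
  have hθ : Function.Injective θ := by
    intro x y hxy
    have h1 : kc (y * x⁻¹) = y * x⁻¹ := by
      have h2 : kc x = x * y⁻¹ * kc y := by
        have h3 : x⁻¹ * kc x = y⁻¹ * kc y := hxy
        rw [mul_assoc, ← h3, ← mul_assoc, mul_inv_cancel, one_mul]
      rw [map_mul, map_inv, h2]
      group
    have h2 := congrArg (fun z : F => (z : H)) h1
    simp only [hkc] at h2
    have h3 : k * ((y * x⁻¹ : F) : H) = ((y * x⁻¹ : F) : H) * k := mul_inv_eq_iff_eq_mul.mp h2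
    have h4 := hfree _ (y * x⁻¹).2 h3
    have h5 : y * x⁻¹ = 1 := Subtype.ext h4
    exact (mul_inv_eq_one.mp h5).symm
  have hcent : ∀ z : F, ∀ d ∈ commutator F, z * d = d * z := by
    intro z d hd
    obtain ⟨x, rfl⟩ := Finite.surjective_of_injective hθ z
    obtain ⟨r, hr⟩ := hpow x
    have h1 : kc x * d * (kc x)⁻¹ = d ^ r := by
      calc kc x * d * (kc x)⁻¹ = kc (x * kc.symm d * x⁻¹) := by
            rw [map_mul, map_mul, map_inv, kc.apply_symm_apply]
        _ = kc ((kc.symm d) ^ r) := by rw [hr _ (hkcD d hd)]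
        _ = d ^ r := by rw [map_zpow, kc.apply_symm_apply]
    have h2 : x⁻¹ * (d ^ r) * x = d := by rw [← hr d hd]; group
    show x⁻¹ * kc x * d = d * (x⁻¹ * kc x)
    calc x⁻¹ * kc x * d = x⁻¹ * (kc x * d * (kc x)⁻¹) * x * (x⁻¹ * kc x) := by group
      _ = d * (x⁻¹ * kc x) := by rw [h1, h2]
  have hcomm : ∀ a b : F, a * b = b * a :=
    commutative_of_cyclic_center_quotient (Abelianization.of (G := F)) (fun d hd => by
      rw [Subgroup.mem_center_iff]
      intro z
      refine hcent z d ?_
      rwa [Abelianization.ker_of] at hd)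
  letI : CommGroup F := { (inferInstance : Group F) with mul_comm := hcomm }
  exact IsCyclic.iff_exponent_eq_card.mpr (IsZGroup.exponent_eq_card F)

theorem card_two_pow_prime_of_linear (hinj : ∀ h : H, ρ h = 1 → h = 1)
    (htr : ∀ u w : V, u ≠ 0 → w ≠ 0 → ∃ h : H, ρ h u = w)
    (hthree : ∀ (h : H) (u w : V), u ≠ 0 → w ≠ 0 → u ≠ w → ρ h u = u → ρ h w = w → h = 1)
    (hfix : ∃ h : H, h ≠ 1 ∧ ∃ u : V, u ≠ 0 ∧ ρ h u = u) :
    ∃ p : ℕ, p.Prime ∧ Nat.card V = 2 ^ p := by
  classical
  obtain ⟨h0, h01, v, hv, hfix⟩ := hfix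
  have ρmul : ∀ (x y : H) (u : V), ρ (x * y) u = ρ x (ρ y u) := fun x y u => by rw [map_mul]; rfl
  have ρone : ∀ u : V, ρ 1 u = u := fun u => by rw [map_one]; rfl
  have ρne : ∀ (x : H) (u : V), u ≠ 0 → ρ x u ≠ 0 := fun x u hu h => hu (by
    have := congrArg (ρ x⁻¹) h
    rwa [map_zero, ← ρmul, inv_mul_cancel, ρone] at this)
  let K : Subgroup H :=
    { carrier := {h | ρ h v = v}
      one_mem' := ρone v
      mul_mem' := fun {x y} hx hy => by
        show ρ (x * y) v = v
        rw [ρmul, show ρ y v = v from hy]; exact hx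
      inv_mem' := fun {x} hx => by
        show ρ x⁻¹ v = v
        nth_rewrite 1 [← show ρ x v = v from hx]
        rw [← ρmul, inv_mul_cancel, ρone] }
  obtain ⟨F, hFn, -, -, hFK, hcompl⟩ :=
    CfsgLib.Chars.Apps.exists_normal_complement_of_malnormal K (by
      intro g h hh h1 hc
      by_contra hg
      refine h1 (hthree h v (ρ g⁻¹ v) hv (ρne _ _ hv) ?_ hh ?_)
      · intro he
        apply hg
        show ρ g v = v
        conv_lhs => rw [he]
        rw [← ρmul, mul_inv_cancel, ρone]
      · have hc' : ρ (g * h * g⁻¹) v = v := hc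
        rw [ρmul, ρmul] at hc'
        conv_rhs => rw [← hc']
        rw [← ρmul g⁻¹ g, inv_mul_cancel, ρone])
  haveI := hFn
  have hbot : ∀ x, x ∈ F → ρ x v = v → x = 1 := fun x hx hxv => by
    have : x ∈ F ⊓ K := ⟨hx, hxv⟩
    rwa [hFK, Subgroup.mem_bot] at this
  have hsurj : ∀ w : V, w ≠ 0 → ∃ f ∈ F, ρ f v = w := by
    intro w hw
    obtain ⟨h, hh⟩ := htr v w hv hw
    obtain ⟨⟨f, k⟩, hfk, -⟩ := Subgroup.IsComplement.existsUnique hcompl h
    refine ⟨f, f.2, ?_⟩
    rw [← hh, ← show (f : H) * (k : H) = h from hfk, ρmul, show ρ (k : H) v = v from k.2]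
  have hfpf : ∀ f ∈ F, ∀ w : V, w ≠ 0 → ρ f w = w → f = 1 := by
    intro f hf w hw hfw
    obtain ⟨g, hg, rfl⟩ := hsurj w hw
    have hm : g⁻¹ * f * g ∈ F := F.mul_mem (F.mul_mem (F.inv_mem hg) hf) hg
    have := hbot _ hm (by rw [ρmul, ρmul, hfw, ← ρmul, inv_mul_cancel, ρone])
    calc f = g * (g⁻¹ * f * g) * g⁻¹ := by group
      _ = 1 := by rw [this]; group
  have hodd : ¬ 2 ∣ Nat.card F := by
    intro hd
    let e : F → {w : V // w ≠ 0} := fun f => ⟨ρ (f : H) v, ρne _ _ hv⟩
    have he : Function.Bijective e := by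
      constructor
      · intro f g h
        have h' : ρ (f : H) v = ρ (g : H) v := congrArg Subtype.val h
        apply Subtype.ext
        refine (inv_mul_eq_one.mp (hbot _ (F.mul_mem (F.inv_mem g.2) f.2) ?_)).symm
        rw [ρmul, h', ← ρmul, inv_mul_cancel, ρone]
      · rintro ⟨w, hw⟩
        obtain ⟨f, hf, hfw⟩ := hsurj w hw
        exact ⟨⟨f, hf⟩, Subtype.ext hfw⟩
    haveI := Fintype.ofFinite V
    rw [Nat.card_congr (Equiv.ofBijective e he), Nat.card_eq_fintype_card,
      Fintype.card_subtype_compl, Fintype.card_subtype_eq] at hd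
    have h2 : 2 ∣ Fintype.card V := by
      rw [Module.card_eq_pow_finrank (K := ZMod 2), ZMod.card]
      exact dvd_pow_self 2 Module.finrank_pos.ne'
    have := Fintype.card_pos (α := V)
    omega
  haveI : IsZGroup F := CfsgLib.Frobenius.Linear.isZGroup_of_odd
    (ρ := ρ.comp F.subtype) (fun f hf w h => by
      by_contra hw
      exact hf (Subtype.ext (hfpf f f.2 w hw h))) hodd
  -- an element of prime order fixing `v`
  obtain ⟨q, hq, hqd⟩ := Nat.exists_prime_and_dvd (show Nat.card K ≠ 1 from fun h => by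
    have : h0 ∈ K := hfix
    rw [Subgroup.card_eq_one.mp h, Subgroup.mem_bot] at this
    exact h01 this)
  haveI := Fact.mk hq
  obtain ⟨⟨k, hk⟩, hkq⟩ := exists_prime_orderOf_dvd_card' (G := K) q hqd
  replace hkq : orderOf k = q := (Subgroup.orderOf_coe (⟨k, hk⟩ : K)).trans hkq
  have hk1 : k ≠ 1 := fun h => by rw [h, orderOf_one] at hkq; exact hq.one_lt.ne hkq
  have hfixk : ∀ w : V, ρ k w = w → w = 0 ∨ w = v := by
    intro w hw
    by_contra hcon
    push Not at hcon
    exact hk1 (hthree k v w hv hcon.1 hcon.2.symm hk hw)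
  haveI : IsCyclic F := isCyclic_of_fpf (k := k) (by
    intro f hf hc
    rcases hfixk (ρ f v) (by rw [← ρmul, hc, ρmul, show ρ k v = v from hk]) with h | h
    · exact absurd h (ρne f v hv)
    · exact hbot f hf h)
  obtain ⟨f0, hf0⟩ := IsCyclic.exists_generator (α := F)
  -- the centraliser of `ρ f0` is a field isomorphic to `V` as a group
  set A : Subring (Module.End (ZMod 2) V) :=
    Subring.centralizer {ρ (f0 : H)} with hA
  have hmemA : ∀ f ∈ F, ρ f ∈ A := by
    intro f hf
    rw [hA, Subring.mem_centralizer_iff]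
    rintro g rfl
    obtain ⟨n, hn⟩ := hf0 ⟨f, hf⟩
    have hn' : (f0 : H) ^ n = f := congrArg Subtype.val hn
    rw [← map_mul, ← map_mul, ← hn', (Commute.refl (f0 : H)).zpow_right n |>.eq]
  have hcommF : ∀ a ∈ A, ∀ f ∈ F, a * ρ f = ρ f * a := by
    intro a ha f hf
    obtain ⟨n, hn⟩ := hf0 ⟨f, hf⟩
    obtain ⟨m, hm⟩ : ∃ m : ℕ, (f0 : H) ^ m = f := by
      refine ⟨(n % (orderOf f0 : ℤ)).toNat, ?_⟩
      have h1 : (f0 : F) ^ (n % (orderOf f0 : ℤ)).toNat = ⟨f, hf⟩ := by
        rw [← hn, ← zpow_natCast, Int.toNat_of_nonneg (Int.emod_nonneg _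
          (by exact_mod_cast (orderOf_pos f0).ne')), zpow_mod_orderOf]
      exact congrArg Subtype.val h1
    rw [← hm, map_pow]
    exact Commute.pow_right
      (show Commute a (ρ (f0 : H)) from ((Subring.mem_centralizer_iff.mp ha) _ rfl).symm) m
  have hev : ∀ a ∈ A, ∀ b ∈ A, a v = b v → a = b := by
    intro a ha b hb h
    apply LinearMap.ext
    intro w
    by_cases hw : w = 0
    · rw [hw, map_zero, map_zero]
    · obtain ⟨f, hf, rfl⟩ := hsurj w hw
      have ea := LinearMap.congr_fun (hcommF a ha f hf) v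
      have eb := LinearMap.congr_fun (hcommF b hb f hf) v
      simp only [Module.End.mul_apply] at ea eb
      rw [ea, eb, h]
  have hshape : ∀ a ∈ A, a = 0 ∨ ∃ f ∈ F, a = ρ f := by
    intro a ha
    by_cases hav : a v = 0
    · exact Or.inl (hev a ha 0 A.zero_mem (by rw [hav]; rfl))
    · obtain ⟨f, hf, hfv⟩ := hsurj _ hav
      exact Or.inr ⟨f, hf, hev a ha _ (hmemA f hf) hfv.symm⟩
  letI : CommRing A := { (inferInstance : Ring A) with
    mul_comm := fun a b => Subtype.ext (by
      rcases hshape b b.2 with h | ⟨f, hf, h⟩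
      · show (a : Module.End (ZMod 2) V) * b = b * a
        rw [h, mul_zero, zero_mul]
      · show (a : Module.End (ZMod 2) V) * b = b * a
        rw [h]
        exact hcommF a a.2 f hf) }
  haveI : Nontrivial A := ⟨⟨0, 1, fun h => by
    have h1 : (0 : Module.End (ZMod 2) V) v = (1 : Module.End (ZMod 2) V) v :=
      congrArg (fun a : A => (a : Module.End (ZMod 2) V) v) h
    exact hv h1.symm⟩⟩
  haveI : NoZeroDivisors A := ⟨fun {a b} hab => by
    rcases hshape a a.2 with h | ⟨f, hf, h⟩
    · exact Or.inl (Subtype.ext h)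
    · right
      apply Subtype.ext
      have h1 : ρ f * (b : Module.End (ZMod 2) V) = 0 := by
        rw [← h]; exact congrArg Subtype.val hab
      calc (b : Module.End (ZMod 2) V) = ρ f⁻¹ * (ρ f * b) := by
            rw [← mul_assoc, ← map_mul, inv_mul_cancel, map_one, one_mul]
        _ = 0 := by rw [h1, mul_zero]⟩
  haveI : IsDomain A := NoZeroDivisors.to_isDomain A
  haveI : Finite A := Finite.of_injective (fun a : A => (a : Module.End (ZMod 2) V) v)
    fun a b h => Subtype.ext (hev a a.2 b b.2 h)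
  letI : Field A := (Finite.isDomain_to_isField A).toField
  have hcardA : Nat.card A = Nat.card V :=
    Nat.card_congr (Equiv.ofBijective (fun a : A => (a : Module.End (ZMod 2) V) v)
      ⟨fun a b h => Subtype.ext (hev a a.2 b b.2 h), fun w => by
        by_cases hw : w = 0
        · exact ⟨0, hw ▸ rfl⟩
        · obtain ⟨f, hf, hfw⟩ := hsurj w hw
          exact ⟨⟨ρ f, hmemA f hf⟩, hfw⟩⟩)
  -- the conjugation action of `⟨k⟩` on this field
  have hconj : ∀ (u : Subgroup.zpowers k), ∀ a ∈ A, ρ (u : H) * a * ρ (u : H)⁻¹ ∈ A := by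
    intro u a ha
    rcases hshape a ha with rfl | ⟨f, hf, rfl⟩
    · rw [mul_zero, zero_mul]; exact A.zero_mem
    · rw [← map_mul, ← map_mul]
      exact hmemA _ (hFn.conj_mem f hf u)
  have hρinv : ∀ x : H, ρ x⁻¹ * ρ x = 1 := fun x => by rw [← map_mul, inv_mul_cancel, map_one]
  letI : MulSemiringAction (Subgroup.zpowers k) A :=
    { smul := fun u a => ⟨ρ (u : H) * a * ρ (u : H)⁻¹, hconj u a a.2⟩
      one_smul := fun a => Subtype.ext (by
        show ρ ((1 : Subgroup.zpowers k) : H) * (a : Module.End (ZMod 2) V) * ρ _ = a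
        rw [Subgroup.coe_one, inv_one, map_one, one_mul, mul_one])
      mul_smul := fun u w a => Subtype.ext (by
        show ρ ((u * w : Subgroup.zpowers k) : H) * (a : Module.End (ZMod 2) V) *
            ρ ((u * w : Subgroup.zpowers k) : H)⁻¹ =
          ρ (u : H) * (ρ (w : H) * a * ρ (w : H)⁻¹) * ρ (u : H)⁻¹
        rw [Subgroup.coe_mul, mul_inv_rev, map_mul, map_mul]
        simp only [mul_assoc])
      smul_zero := fun u => Subtype.ext (by
        show ρ (u : H) * (0 : Module.End (ZMod 2) V) * ρ _ = 0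
        rw [mul_zero, zero_mul])
      smul_add := fun u a b => Subtype.ext (by
        show ρ (u : H) * ((a : Module.End (ZMod 2) V) + b) * ρ _ =
          ρ (u : H) * a * ρ _ + ρ (u : H) * b * ρ _
        rw [mul_add, add_mul])
      smul_one := fun u => Subtype.ext (by
        show ρ (u : H) * (1 : Module.End (ZMod 2) V) * ρ _ = 1
        rw [mul_one, ← map_mul, mul_inv_cancel, map_one])
      smul_mul := fun u a b => Subtype.ext (by
        show ρ (u : H) * ((a : Module.End (ZMod 2) V) * b) * ρ _ =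
          ρ (u : H) * a * ρ _ * (ρ (u : H) * b * ρ _)
        simp only [mul_assoc]
        rw [← mul_assoc (ρ (u : H)⁻¹) (ρ (u : H)), hρinv, one_mul]) }
  have hsmulv : ∀ (u : Subgroup.zpowers k) (a : A),
      ((u • a : A) : Module.End (ZMod 2) V) v = ρ (u : H) ((a : Module.End (ZMod 2) V) v) := by
    intro u a
    show (ρ (u : H) * (a : Module.End (ZMod 2) V) * ρ (u : H)⁻¹) v = _
    have hu : (u : H) ∈ K := by
      obtain ⟨n, hn⟩ := u.2
      rw [← hn]; exact K.zpow_mem hk n
    rw [Module.End.mul_apply, Module.End.mul_apply,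
      show ρ (u : H)⁻¹ v = v from K.inv_mem hu]
  haveI : FaithfulSMul (Subgroup.zpowers k) A := ⟨fun {u w} h => by
    apply Subtype.ext
    have hw : ((u : H)⁻¹ * w) = 1 := by
      apply hinj
      apply LinearMap.ext
      intro x
      by_cases hx : x = 0
      · rw [hx, map_zero, map_zero]
      · obtain ⟨f, hf, rfl⟩ := hsurj x hx
        have h1 := congrArg (fun a : A => (a : Module.End (ZMod 2) V) v) (h ⟨ρ f, hmemA f hf⟩)
        simp only [hsmulv] at h1
        rw [ρmul, ← h1, ← ρmul, inv_mul_cancel, ρone]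
        rfl
    exact inv_mul_eq_one.mp hw⟩
  have hfixed : Nat.card (FixedPoints.subfield (Subgroup.zpowers k) A) = 2 := by
    rw [Nat.card_eq_two_iff]
    refine ⟨0, 1, zero_ne_one, Set.eq_univ_of_forall fun a => ?_⟩
    have h := a.2 ⟨k, Subgroup.mem_zpowers k⟩
    have h1 := congrArg (fun b : A => (b : Module.End (ZMod 2) V) v) h
    simp only [hsmulv] at h1
    rcases hfixk _ h1 with h2 | h2
    · exact Or.inl (Subtype.ext (Subtype.ext (hev _ (a : A).2 0 A.zero_mem (by rw [h2]; rfl))))
    · exact Or.inr (Subtype.ext (Subtype.ext (hev _ (a : A).2 1 A.one_mem (by rw [h2]; rfl))))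
  haveI := Fintype.ofFinite (Subgroup.zpowers k)
  refine ⟨q, hq, ?_⟩
  rw [← hcardA, Module.natCard_eq_pow_finrank (K := FixedPoints.subfield (Subgroup.zpowers k) A),
    hfixed, FixedPoints.finrank_eq_card, ← Nat.card_eq_fintype_card, Nat.card_zpowers, hkq]

end linear

theorem card_two_pow_prime {G Ω : Type*} [Group G] [MulAction G Ω] [Fintype Ω] [FaithfulSMul G Ω]
    (h2 : IsMultiplyPretransitive G Ω 2)
    (h3 : ∀ g : G, ∀ a b c : Ω, a ≠ b → b ≠ c → a ≠ c → g • a = a → g • b = b → g • c = c → g = 1)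
    (hfix : ∃ g : G, g ≠ 1 ∧ ∃ a b : Ω, a ≠ b ∧ g • a = a ∧ g • b = b)
    (N : Subgroup G) [N.Normal] (hNt : IsPretransitive N Ω)
    (hNr : ∀ a : Ω, stabilizer N a = ⊥) :
    ∃ p : ℕ, p.Prime ∧ Fintype.card Ω = 2 ^ p := by
  classical
  haveI : Finite G := Finite.of_injective (MulAction.toPerm (α := G) (β := Ω))
    MulAction.toPerm_injective
  obtain ⟨g0, hg01, a, b, hab, hga, hgb⟩ := hfix
  have hX : 2 ≤ Nat.card Ω := by
    rw [Nat.card_eq_fintype_card]; exact Fintype.one_lt_card_iff.mpr ⟨a, b, hab⟩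
  obtain ⟨hNc, -⟩ := CfsgLib.PermGroups.regular_normal_elementary_of_two_transitive h2 hX N hNr
  have inj : ∀ x y : N, (x : G) • a = (y : G) • a → x = y := fun x y h => by
    have : x⁻¹ * y ∈ stabilizer N a := by
      rw [mem_stabilizer_iff, mul_smul, inv_smul_eq_iff]; exact h.symm
    rw [hNr, Subgroup.mem_bot, inv_mul_eq_one] at this
    exact this
  have hsurjN : ∀ c : Ω, ∃ x : N, (x : G) • a = c := fun c => exists_smul_eq N a c
  have hconjv : ∀ (h : stabilizer G a) (x : N),
      ((MulAut.conjNormal (h : G) x : N) : G) • a = (h : G) • (x : G) • a := fun h x => by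
    rw [MulAut.conjNormal_apply, mul_smul, mul_smul,
      inv_smul_eq_iff.mpr (mem_stabilizer_iff.mp h.2).symm]
  -- an element fixing `a` and `x • a` centralises `x`
  have hcomm : ∀ (h : stabilizer G a) (x : N),
      MulAut.conjNormal (h : G) x = x ↔ (h : G) • (x : G) • a = (x : G) • a := fun h x =>
    ⟨fun e => by rw [← hconjv, e], fun e => inj _ _ ((hconjv h x).trans e)⟩
  obtain ⟨n0, hn0⟩ := hsurjN b
  have hfix0 : MulAut.conjNormal g0 n0 = n0 :=
    (hcomm ⟨g0, hga⟩ n0).mpr (by rw [hn0]; exact hgb)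
  have hsmall : ∀ x : N, MulAut.conjNormal g0 x = x → x = 1 ∨ x = n0 := by
    intro x hx
    by_contra hcon
    push Not at hcon
    refine hg01 (h3 g0 a b ((x : G) • a) hab ?_ ?_ hga hgb ((hcomm ⟨g0, hga⟩ x).mp hx))
    · rw [← hn0]; exact fun e => hcon.2 (inj _ _ e).symm
    · intro e
      exact hcon.1 (inj x 1 (by rw [← e]; exact (one_smul G a).symm))
  have hn01 : n0 ≠ 1 := fun e => hab (by rw [← hn0, e]; exact (one_smul G a).symm)
  have hn02 : n0 * n0 = 1 := by
    rcases hsmall (n0 * n0) (by rw [map_mul, hfix0]) with h | h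
    · exact h
    · exact absurd (mul_eq_left.mp h) hn01
  have htwo : ∀ x : N, x * x = 1 := by
    intro x
    by_cases hx : x = 1
    · rw [hx, one_mul]
    obtain ⟨g, hg1, hg2⟩ := is_two_pretransitive_iff.mp h2 hab
      (show a ≠ (x : G) • a from fun e => hx (inj x 1 (by rw [← e]; exact (one_smul G a).symm)))
    have hx' : MulAut.conjNormal g n0 = x := inj _ _ (by
      rw [show g = ((⟨g, hg1⟩ : stabilizer G a) : G) from rfl, hconjv]
      show g • (n0 : G) • a = (x : G) • a
      rw [hn0, hg2])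
    rw [← hx', ← map_mul, hn02, map_one]
  letI : CommGroup N := { (inferInstance : Group N) with mul_comm := fun x y => hNc.1.1 x y }
  letI : Module (ZMod 2) (Additive N) := AddCommGroup.zmodModule fun x => by
    apply Additive.toMul.injective
    show (Additive.toMul x) ^ 2 = 1
    rw [pow_two]
    exact htwo _
  haveI : Nontrivial (Additive N) := ⟨⟨Additive.ofMul n0, 0, fun e => hn01 e⟩⟩
  let ρ : Representation (ZMod 2) (stabilizer G a) (Additive N) :=
    { toFun := fun h => (MonoidHom.toAdditive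
        (MulAut.conjNormal (h : G) : MulAut N).toMonoidHom).toZModLinearMap 2
      map_one' := LinearMap.ext fun x => by
        show Additive.ofMul (MulAut.conjNormal ((1 : stabilizer G a) : G) (Additive.toMul x)) = x
        rw [Subgroup.coe_one, map_one]
        rfl
      map_mul' := fun h h' => LinearMap.ext fun x => by
        show Additive.ofMul (MulAut.conjNormal ((h * h' : stabilizer G a) : G) (Additive.toMul x)) =
          Additive.ofMul (MulAut.conjNormal (h : G) (MulAut.conjNormal (h' : G) (Additive.toMul x)))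
        rw [Subgroup.coe_mul, map_mul]
        rfl }
  have key : ∀ (h : stabilizer G a) (x : N), ρ h (Additive.ofMul x) = Additive.ofMul x →
      (h : G) • (x : G) • a = (x : G) • a := fun h x e =>
    (hcomm h x).mp (Additive.ofMul.injective e)
  obtain ⟨p, hp, hcard⟩ := card_two_pow_prime_of_linear ρ
    (fun h e => by
      apply Subtype.ext
      apply FaithfulSMul.eq_of_smul_eq_smul (α := Ω)
      intro c
      obtain ⟨x, rfl⟩ := hsurjN c
      rw [Subgroup.coe_one, one_smul]
      exact key h x (by rw [e]; rfl))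
    (fun u w hu hw => by
      have hne : ∀ y : Additive N, y ≠ 0 → a ≠ ((Additive.toMul y : N) : G) • a := fun y hy e =>
        hy (congrArg Additive.ofMul
          (inj (Additive.toMul y) 1 (by rw [← e]; exact (one_smul G a).symm)))
      obtain ⟨g, hg1, hg2⟩ := is_two_pretransitive_iff.mp h2 (hne u hu) (hne w hw)
      refine ⟨⟨g, hg1⟩, congrArg Additive.ofMul (inj _ (Additive.toMul w) ?_)⟩
      show ((MulAut.conjNormal ((⟨g, hg1⟩ : stabilizer G a) : G) (Additive.toMul u) : N) : G) • a = _
      rw [hconjv]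
      exact hg2)
    (fun h u w hu hw huw hfu hfw => by
      apply Subtype.ext
      refine h3 (h : G) a (((Additive.toMul u : N) : G) • a) (((Additive.toMul w : N) : G) • a)
        ?_ ?_ ?_ h.2 (key h _ hfu) (key h _ hfw)
      · exact fun e => hu (congrArg Additive.ofMul
          (inj (Additive.toMul u) 1 (by rw [← e]; exact (one_smul G a).symm)))
      · exact fun e => huw (congrArg Additive.ofMul (inj _ _ e))
      · exact fun e => hw (congrArg Additive.ofMul
          (inj (Additive.toMul w) 1 (by rw [← e]; exact (one_smul G a).symm))))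
    ⟨⟨g0, hga⟩, fun e => hg01 (congrArg Subtype.val e), Additive.ofMul n0,
      fun e => hn01 e, congrArg Additive.ofMul hfix0⟩
  refine ⟨p, hp, ?_⟩
  rw [← hcard, ← Nat.card_eq_fintype_card]
  exact (Nat.card_congr (Additive.toMul.trans (Equiv.ofBijective (fun x : N => (x : G) • a)
    ⟨fun x y h => inj x y h, hsurjN⟩))).symm

end CfsgLib.Perm57
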