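import Mathlib

/-!
Witt's lemma on transitive extensions.
-/

set_option autoImplicit false

namespace CfsgLib.Perm57

open MulAction

variable {α : Type*}

/-- One step: adjoin to `A` an element `s` swapping `p` with the point `r` fixed by `A`. -/
theorem extension_step (A : Subgroup (Equiv.Perm α)) (p r : α) (s u : Equiv.Perm α) (Y : Set α)
    (hpY : p ∈ Y) (hrY : r ∉ Y) (hinv : ∀ a ∈ A, ∀ y ∈ Y, a y ∈ Y)
    (hAr : ∀ a ∈ A, a r = r) (hu : u ∈ A) (hup : u p ≠ p)
    (htr : ∀ y ∈ Y, ∃ a ∈ A, a p = y)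
    (hP : ∀ x ∈ Y, ∀ y ∈ Y, x ≠ p → y ≠ p → ∃ a ∈ A, a p = p ∧ a x = y)
    (hsr : s r = p) (hsp : s p = r) (hs2 : s ^ 2 ∈ A) (hus : (u * s) ^ 3 ∈ A)
    (hn : ∀ a ∈ A, a p = p → s * a * s⁻¹ ∈ A) :
    (∀ b ∈ Subgroup.closure ((A : Set (Equiv.Perm α)) ∪ {s}), b r = r → b ∈ A) ∧
      (∀ y, y ∈ Y ∨ y = r → ∃ b ∈ Subgroup.closure ((A : Set (Equiv.Perm α)) ∪ {s}), b r = y) := by
  classical
  set S : Set (Equiv.Perm α) := {f | f ∈ A ∨ ∃ a ∈ A, ∃ b ∈ A, f = a * s * b}
  have hinvs : s⁻¹ = (s ^ 2)⁻¹ * s := by rw [pow_two]; group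
  have hAS : ∀ a ∈ A, ∀ f ∈ S, a * f ∈ S := by
    rintro a ha f (hf | ⟨b, hb, c, hc, rfl⟩)
    · exact Or.inl (A.mul_mem ha hf)
    · exact Or.inr ⟨a * b, A.mul_mem ha hb, c, hc, by group⟩
  have hSA : ∀ a ∈ A, ∀ f ∈ S, f * a ∈ S := by
    rintro a ha f (hf | ⟨b, hb, c, hc, rfl⟩)
    · exact Or.inl (A.mul_mem hf ha)
    · exact Or.inr ⟨b, hb, c * a, A.mul_mem hc ha, by group⟩
  have hfix : ∀ a ∈ A, a p = p → s * a * s ∈ A := by
    intro a ha hap
    have e : s * a * s = (s * a * s⁻¹) * s ^ 2 := by rw [pow_two]; group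
    rw [e]
    exact A.mul_mem (hn a ha hap) hs2
  have hsusS : s⁻¹ * u * s⁻¹ ∈ S := by
    have e : s * u * s = u⁻¹ * ((u * s) ^ 3) * (s⁻¹ * u⁻¹) := by
      simp only [pow_succ, pow_zero, one_mul]; group
    have : s * u * s ∈ S := by
      rw [e]
      refine Or.inr ⟨u⁻¹ * (u * s) ^ 3 * (s ^ 2)⁻¹, A.mul_mem (A.mul_mem (A.inv_mem hu) hus)
        (A.inv_mem hs2), u⁻¹, A.inv_mem hu, ?_⟩
      rw [hinvs]; group
    have e2 : s⁻¹ * u * s⁻¹ = (s ^ 2)⁻¹ * (s * u * s) * (s ^ 2)⁻¹ := by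
      rw [pow_two]; group
    rw [e2]
    exact hSA _ (A.inv_mem hs2) _ (hAS _ (A.inv_mem hs2) _ this)
  have hmid : ∀ f ∈ A, s * f * s ∈ S := by
    intro f hf
    by_cases hp : f p = p
    · exact Or.inl (hfix f hf hp)
    · obtain ⟨a, ha, hap, haf⟩ := hP (u p) (hinv u hu p hpY) (f p) (hinv f hf p hpY) hup hp
      have hbp : (u⁻¹ * a⁻¹ * f) p = p := by
        show u⁻¹ (a⁻¹ (f p)) = p
        rw [Equiv.Perm.inv_eq_iff_eq, Equiv.Perm.inv_eq_iff_eq, haf]
      have e : s * f * s = (s * a * s) * (s⁻¹ * u * s⁻¹) * (s * (u⁻¹ * a⁻¹ * f) * s) := by group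
      rw [e]
      exact hSA _ (hfix _ (A.mul_mem (A.mul_mem (A.inv_mem hu) (A.inv_mem ha)) hf) hbp) _
        (hAS _ (hfix a ha hap) _ hsusS)
  let E : Subgroup (Equiv.Perm α) :=
    { carrier := S
      one_mem' := Or.inl A.one_mem
      mul_mem' := fun {f g} hf hg => by
        rcases hf with hf | ⟨a, ha, b, hb, rfl⟩
        · exact hAS f hf g hg
        · rcases hg with hg | ⟨c, hc, d, hd, rfl⟩
          · exact hSA g hg _ (Or.inr ⟨a, ha, b, hb, rfl⟩)
          · have e : a * s * b * (c * s * d) = a * (s * (b * c) * s) * d := by group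
            rw [e]
            exact hSA _ hd _ (hAS _ ha _ (hmid _ (A.mul_mem hb hc)))
      inv_mem' := fun {f} hf => by
        rcases hf with hf | ⟨a, ha, b, hb, rfl⟩
        · exact Or.inl (A.inv_mem hf)
        · refine Or.inr ⟨b⁻¹ * (s ^ 2)⁻¹, A.mul_mem (A.inv_mem hb) (A.inv_mem hs2), a⁻¹,
            A.inv_mem ha, ?_⟩
          rw [mul_inv_rev, mul_inv_rev, hinvs]; group }
  have hE : Subgroup.closure ((A : Set (Equiv.Perm α)) ∪ {s}) ≤ E :=
    (Subgroup.closure_le E).mpr (Set.union_subset (fun f hf => Or.inl hf)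
      (Set.singleton_subset_iff.mpr (Or.inr ⟨1, A.one_mem, 1, A.one_mem, by group⟩)))
  constructor
  · intro b hb hbr
    rcases hE hb with hb' | ⟨a, ha, c, hc, rfl⟩
    · exact hb'
    · exfalso
      have h1 : a (s (c r)) = r := hbr
      rw [hAr c hc, hsr] at h1
      exact hrY (h1 ▸ hinv a ha p hpY)
  · rintro y (hy | rfl)
    · obtain ⟨a, ha, hap⟩ := htr y hy
      exact ⟨a * s, Subgroup.mul_mem _ (Subgroup.subset_closure (Or.inl ha))
        (Subgroup.subset_closure (Or.inr rfl)), by show a (s r) = y; rw [hsr, hap]⟩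
    · exact ⟨1, Subgroup.one_mem _, rfl⟩

theorem witt_transitive_extension [Fintype α] [DecidableEq α] (t : ℕ) (ht : 2 ≤ t) (q : ℕ → α)
    (hq : ∀ i j : ℕ, 1 ≤ i → i ≤ t → 1 ≤ j → j ≤ t → q i = q j → i = j)
    (G : Subgroup (Equiv.Perm α)) (hfix : ∀ g ∈ G, ∀ i : ℕ, 3 ≤ i → i ≤ t → g (q i) = q i)
    (h2 : ∀ a b c d : α, (∀ i, 3 ≤ i → i ≤ t → a ≠ q i ∧ b ≠ q i ∧ c ≠ q i ∧ d ≠ q i) →
      a ≠ b → c ≠ d → ∃ g ∈ G, g a = c ∧ g b = d)
    (s : ℕ → Equiv.Perm α) (hs1 : s 1 ∈ G) (hs1q : s 1 (q 1) = q 2 ∧ s 1 (q 2) = q 1)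
    (hsq : ∀ i : ℕ, 2 ≤ i → i + 1 ≤ t → s i (q i) = q (i + 1) ∧ s i (q (i + 1)) = q i ∧
      ∀ j : ℕ, 1 ≤ j → j ≤ t → j ≠ i → j ≠ i + 1 → s i (q j) = q j)
    (H : Subgroup (Equiv.Perm α))
    (hH : H = G ⊓ MulAction.stabilizer (Equiv.Perm α) (q 1) ⊓
      MulAction.stabilizer (Equiv.Perm α) (q 2))
    (hsq2 : ∀ i : ℕ, 1 ≤ i → i + 1 ≤ t → s i ^ 2 ∈ H)
    (hbraid : ∀ i : ℕ, 1 ≤ i → i + 2 ≤ t → (s i * s (i + 1)) ^ 3 ∈ H)
    (hcomm : ∀ i j : ℕ, 1 ≤ i → i + 2 ≤ j → j + 1 ≤ t →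
      (s i * s j) ^ 2 ∈ H ∧ (s j * s i) ^ 2 ∈ H)
    (hnorm : ∀ i : ℕ, 2 ≤ i → i + 1 ≤ t → ∀ g ∈ G ⊓ MulAction.stabilizer (Equiv.Perm α) (q 2),
      s i * g * (s i)⁻¹ ∈ G ⊓ MulAction.stabilizer (Equiv.Perm α) (q 2)) :
    MulAction.IsMultiplyPretransitive ↥(Subgroup.closure ((G : Set (Equiv.Perm α)) ∪
        {x | ∃ i : ℕ, 2 ≤ i ∧ i + 1 ≤ t ∧ x = s i})) α t ∧
      Subgroup.closure ((G : Set (Equiv.Perm α)) ∪ {x | ∃ i : ℕ, 2 ≤ i ∧ i + 1 ≤ t ∧ x = s i}) ⊓
        fixingSubgroup (Equiv.Perm α) {x | ∃ i : ℕ, 1 ≤ i ∧ i ≤ t ∧ x = q i} = H := by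
  classical
  let Q : Subgroup (Equiv.Perm α) := G ⊓ stabilizer (Equiv.Perm α) (q 2)
  let T : ℕ → Subgroup (Equiv.Perm α) := fun k =>
    if k = 0 then Q else Subgroup.closure ((G : Set (Equiv.Perm α)) ∪
      {x | ∃ i : ℕ, 2 ≤ i ∧ i ≤ k ∧ x = s i})
  have hT0 : T 0 = Q := rfl
  have hTs : ∀ k, T (k + 1) = Subgroup.closure ((G : Set (Equiv.Perm α)) ∪
      {x | ∃ i : ℕ, 2 ≤ i ∧ i ≤ k + 1 ∧ x = s i}) := fun k => by simp [T]
  have hT1 : T 1 = G := by
    rw [hTs, show {x : Equiv.Perm α | ∃ i : ℕ, 2 ≤ i ∧ i ≤ 0 + 1 ∧ x = s i} = ∅ by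
      ext x; simp only [Set.mem_setOf_eq, Set.mem_empty_iff_false, iff_false]; omega]
    rw [Set.union_empty, Subgroup.closure_eq]
  have hTstep : ∀ k, T (k + 2) = Subgroup.closure ((T (k + 1) : Set (Equiv.Perm α)) ∪ {s (k + 2)}) := by
    intro k
    rw [hTs, hTs]
    refine le_antisymm ((Subgroup.closure_le _).mpr ?_) ((Subgroup.closure_le _).mpr ?_)
    · rintro x (hx | ⟨i, h1, h2, rfl⟩)
      · exact Subgroup.subset_closure (Or.inl (Subgroup.subset_closure (Or.inl hx)))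
      · rcases Nat.lt_or_ge i (k + 2) with h | h
        · exact Subgroup.subset_closure
            (Or.inl (Subgroup.subset_closure (Or.inr ⟨i, h1, by omega, rfl⟩)))
        · have : i = k + 2 := by omega
          subst this
          exact Subgroup.subset_closure (Or.inr rfl)
    · rintro x (hx | rfl)
      · refine (Subgroup.closure_le _).mpr ?_ hx
        rintro y (hy | ⟨i, h1, h2, rfl⟩)
        · exact Subgroup.subset_closure (Or.inl hy)
        · exact Subgroup.subset_closure (Or.inr ⟨i, h1, by omega, rfl⟩)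
      · exact Subgroup.subset_closure (Or.inr ⟨k + 2, by omega, le_rfl, rfl⟩)
  let Y : ℕ → Set α := fun k => {x | ∀ i, k + 2 ≤ i → i ≤ t → x ≠ q i}
  have hfixT : ∀ k, ∀ g ∈ T k, ∀ i, k + 2 ≤ i → i ≤ t → g (q i) = q i := by
    intro k g hg i hi hit
    rcases k with _ | k
    · rcases Nat.lt_or_ge i 3 with h | h
      · have : i = 2 := by omega
        subst this
        exact hg.2
      · exact hfix g hg.1 i h hit
    · rw [hTs] at hg
      have hle : Subgroup.closure ((G : Set (Equiv.Perm α)) ∪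
          {x | ∃ i : ℕ, 2 ≤ i ∧ i ≤ k + 1 ∧ x = s i}) ≤ stabilizer (Equiv.Perm α) (q i) := by
        rw [Subgroup.closure_le]
        rintro x (hx | ⟨j, hj1, hj2, rfl⟩)
        · exact hfix x hx i (by omega) hit
        · exact (hsq j hj1 (by omega)).2.2 i (by omega) hit (by omega) (by omega)
      exact hle hg
  have hinvT : ∀ k, ∀ g ∈ T k, ∀ y ∈ Y k, g y ∈ Y k := by
    intro k g hg y hy i hi hit hgy
    exact hy i hi hit (g.injective (hgy.trans (hfixT k g hg i hi hit).symm))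
  have hHG : ∀ k, H ≤ T k := by
    intro k h hh
    rw [hH] at hh
    rcases k with _ | k
    · exact ⟨hh.1.1, hh.2⟩
    · rw [hTs]; exact Subgroup.subset_closure (Or.inl hh.1.1)
  have hY0tr : ∀ x ∈ Y 0, ∀ y ∈ Y 0, ∃ a ∈ G, a (q 2) = q 2 ∧ a x = y := by
    intro x hx y hy
    have h22 : ∀ i, 3 ≤ i → i ≤ t → q 2 ≠ q i := fun i h3 hit he => by
      have := hq 2 i (by omega) ht (by omega) hit he
      omega
    obtain ⟨g, hg, hg1, hg2⟩ := h2 x (q 2) y (q 2)
      (fun i h3 hit => ⟨hx i (by omega) hit, h22 i h3 hit, hy i (by omega) hit, h22 i h3 hit⟩)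
      (hx 2 le_rfl ht) (hy 2 le_rfl ht)
    exact ⟨g, hg, hg2, hg1⟩
  have hqY : ∀ k i, 1 ≤ i → i ≤ k + 1 → k + 1 ≤ t → q i ∈ Y k := by
    intro k i hi hik hk j hj hjt he
    have := hq i j hi (by omega) (by omega) hjt he
    omega
  have hYsucc : ∀ k x, x ∈ Y (k + 1) → x ≠ q (k + 2) → x ∈ Y k := by
    intro k x hx hne i hi hit
    rcases Nat.lt_or_ge i (k + 3) with h | h
    · have : i = k + 2 := by omega
      subst this
      exact hne
    · exact hx i h hit
  -- conjugation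
  have hconj : ∀ m, m + 1 ≤ t → ∀ j, 2 ≤ m → j + 2 ≤ m → ∀ a ∈ T j, s m * a * (s m)⁻¹ ∈ T j := by
    intro m hmt j hm2 hjm
    induction j with
    | zero => exact fun a ha => hnorm m hm2 hmt a ha
    | succ j ih =>
      have hgen : ∀ i, 1 ≤ i → i ≤ j + 1 → s m * s i * (s m)⁻¹ ∈ T (j + 1) := by
        intro i hi hij
        have hi2 := hcomm i m hi (by omega) hmt
        have hsi : s i ∈ T (j + 1) := by
          rw [hTs]
          rcases Nat.lt_or_ge i 2 with h | h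
          · have : i = 1 := by omega
            subst this
            exact Subgroup.subset_closure (Or.inl hs1)
          · exact Subgroup.subset_closure (Or.inr ⟨i, h, hij, rfl⟩)
        have e : s m * s i * (s m)⁻¹ = (s m * s i) ^ 2 * (s i)⁻¹ * ((s m) ^ 2)⁻¹ := by
          simp only [pow_two]; group
        rw [e]
        exact (T (j + 1)).mul_mem ((T (j + 1)).mul_mem (hHG _ hi2.2) ((T (j + 1)).inv_mem hsi))
          ((T (j + 1)).inv_mem (hHG _ (hsq2 m (by omega) hmt)))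
      have hGle : ∀ a ∈ G, s m * a * (s m)⁻¹ ∈ T (j + 1) := by
        intro a ha
        have hQ : ∀ a ∈ Q, s m * a * (s m)⁻¹ ∈ T (j + 1) := fun a ha => by
          rw [hTs]
          exact Subgroup.subset_closure (Or.inl (hnorm m hm2 hmt a ha).1)
        by_cases ha2 : a (q 2) = q 2
        · exact hQ a ⟨ha, ha2⟩
        · have h3 : q 1 ∈ Y 0 := hqY 0 1 le_rfl le_rfl (by omega)
          have h4 : a (q 2) ∈ Y 0 := by
            refine hYsucc 0 _ ?_ ha2
            exact hinvT 1 a (hT1.symm ▸ ha) _ (hqY 1 2 (by omega) le_rfl ht)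
          obtain ⟨b, hb, hb2, hb1⟩ := hY0tr (q 1) h3 (a (q 2)) h4
          have hc : ((s 1)⁻¹ * b⁻¹ * a) (q 2) = q 2 := by
            show (s 1)⁻¹ (b⁻¹ (a (q 2))) = q 2
            rw [Equiv.Perm.inv_eq_iff_eq, Equiv.Perm.inv_eq_iff_eq, hs1q.2, hb1]
          have e : s m * a * (s m)⁻¹ = (s m * b * (s m)⁻¹) * (s m * s 1 * (s m)⁻¹) *
              (s m * ((s 1)⁻¹ * b⁻¹ * a) * (s m)⁻¹) := by group
          rw [e]
          exact (T (j + 1)).mul_mem ((T (j + 1)).mul_mem (hQ b ⟨hb, hb2⟩)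
            (hgen 1 le_rfl (by omega)))
            (hQ _ ⟨G.mul_mem (G.mul_mem (G.inv_mem hs1) (G.inv_mem hb)) ha, hc⟩)
      intro a ha
      have hle : T (j + 1) ≤ (T (j + 1)).comap (MulAut.conj (s m)).toMonoidHom := by
        nth_rewrite 1 [hTs]
        rw [Subgroup.closure_le]
        rintro x (hx | ⟨i, hi1, hi2, rfl⟩)
        · exact hGle x hx
        · exact hgen i (by omega) hi2
      exact hle ha
  -- the invariant
  have main : ∀ k, k + 1 ≤ t →
      (∀ x ∈ Y k, ∀ y ∈ Y k, ∃ g ∈ T k, g x = y) ∧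
      ∀ k', k = k' + 1 → ∀ g ∈ T k, g (q (k + 1)) = q (k + 1) → g ∈ T k' := by
    intro k
    induction k using Nat.strong_induction_on with
    | _ k ih =>
      intro hkt
      rcases k with _ | _ | k
      · refine ⟨fun x hx y hy => ?_, fun k' hk' => by omega⟩
        obtain ⟨g, hg, h1, h2⟩ := hY0tr x hx y hy
        exact ⟨g, ⟨hg, h1⟩, h2⟩
      · refine ⟨fun x hx y hy => ?_, fun k' hk' g hg hg2 => ?_⟩
        · rw [hT1]
          by_cases hxy : x = y
          · exact ⟨1, G.one_mem, hxy⟩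
          obtain ⟨g, hg, h1, -⟩ := h2 x y y x
            (fun i h3 hit => ⟨hx i h3 hit, hy i h3 hit, hy i h3 hit, hx i h3 hit⟩) hxy
            (Ne.symm hxy)
          exact ⟨g, hg, h1⟩
        · have : k' = 0 := by omega
          subst this
          exact ⟨hT1 ▸ hg, hg2⟩
      · obtain ⟨hA1, hA2⟩ := ih (k + 1) (by omega) (by omega)
        obtain ⟨hP1, -⟩ := ih k (by omega) (by omega)
        obtain ⟨hsa, hsb, -⟩ := hsq (k + 2) (by omega) (by omega)
        have hsmem : s (k + 1) ∈ T (k + 1) := by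
          rcases k with _ | k
          · rw [hT1]; exact hs1
          · rw [hTs]; exact Subgroup.subset_closure (Or.inr ⟨k + 1 + 1, by omega, le_rfl, rfl⟩)
        have hsk : s (k + 1) (q (k + 2)) = q (k + 1) := by
          rcases k with _ | k
          · exact hs1q.2
          · exact (hsq (k + 1 + 1) (by omega) (by omega)).2.1
        have hTle : T k ≤ T (k + 1) := by
          rcases k with _ | k
          · rw [hT1]; exact inf_le_left
          · rw [hTs, hTs]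
            exact Subgroup.closure_mono (Set.union_subset_union_right _
              fun x ⟨i, h1, h2, h3⟩ => ⟨i, h1, by omega, h3⟩)
        have hfixk : ∀ a ∈ T k, a (q (k + 2)) = q (k + 2) := fun a ha =>
          hfixT k a ha (k + 2) le_rfl (by omega)
        obtain ⟨hstab, htrans⟩ := extension_step (T (k + 1)) (q (k + 2)) (q (k + 3)) (s (k + 2))
          (s (k + 1)) (Y (k + 1)) (hqY _ _ (by omega) le_rfl (by omega))
          (fun h => h (k + 3) le_rfl (by omega) rfl) (hinvT _)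
          (fun a ha => hfixT _ a ha (k + 3) le_rfl (by omega)) hsmem
          (fun h => by
            rw [hsk] at h
            have := hq (k + 1) (k + 2) (by omega) (by omega) (by omega) (by omega) h
            omega)
          (fun y hy => hA1 _ (hqY _ _ (by omega) le_rfl (by omega)) y hy)
          (fun x hx y hy hxp hyp => by
            obtain ⟨a, ha, hax⟩ := hP1 x (hYsucc k x hx hxp) y (hYsucc k y hy hyp)
            exact ⟨a, hTle ha, hfixk a ha, hax⟩)
          hsb hsa (hHG _ (hsq2 (k + 2) (by omega) (by omega)))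
          (hHG _ (hbraid (k + 1) (by omega) (by omega)))
          (fun a ha hap => hTle (hconj (k + 2) (by omega) k (by omega) le_rfl a (hA2 k rfl a ha hap)))
        rw [← hTstep] at hstab htrans
        refine ⟨fun x hx y hy => ?_, fun k' hk' g hg hgf => ?_⟩
        · have key : ∀ z ∈ Y (k + 1 + 1), ∃ g ∈ T (k + 1 + 1), g (q (k + 3)) = z := fun z hz =>
            htrans z (or_iff_not_imp_right.mpr fun h => hYsucc (k + 1) z hz h)
          obtain ⟨g1, hg1, h1⟩ := key x hx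
          obtain ⟨g2, hg2, h2⟩ := key y hy
          refine ⟨g2 * g1⁻¹, Subgroup.mul_mem _ hg2 (Subgroup.inv_mem _ hg1), ?_⟩
          show g2 (g1⁻¹ x) = y
          rw [Equiv.Perm.inv_eq_iff_eq.mpr h1.symm]
          exact h2
        · have : k' = k + 1 := by omega
          subst this
          exact hstab g hg hgf
  have chain : ∀ k, k + 1 ≤ t →
      (∀ x : ℕ → α, (∀ i, 1 ≤ i → i ≤ k + 1 → x i ∈ Y k) →
        (∀ i j, 1 ≤ i → i ≤ k + 1 → 1 ≤ j → j ≤ k + 1 → x i = x j → i = j) →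
        ∃ g ∈ T k, ∀ i, 1 ≤ i → i ≤ k + 1 → g (x i) = q i) ∧
      ∀ g ∈ T k, (∀ i, 1 ≤ i → i ≤ k + 1 → g (q i) = q i) → g ∈ H := by
    intro k
    induction k with
    | zero =>
      intro hkt
      refine ⟨fun x hx _ => ?_, fun g hg hgq => ?_⟩
      · obtain ⟨g, hg, hgx⟩ :=
          (main 0 hkt).1 (x 1) (hx 1 le_rfl le_rfl) (q 1) (hqY 0 1 le_rfl le_rfl hkt)
        refine ⟨g, hg, fun i h1 h2 => ?_⟩
        obtain rfl : i = 1 := by omega
        exact hgx
      · rw [hH]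
        exact ⟨⟨hg.1, hgq 1 le_rfl le_rfl⟩, hg.2⟩
    | succ k ih =>
      intro hkt
      obtain ⟨ih1, ih2⟩ := ih (by omega)
      obtain ⟨htr, hst⟩ := main (k + 1) hkt
      refine ⟨fun x hx hinj => ?_, fun g hg hgq => ?_⟩
      · obtain ⟨g, hg, hgx⟩ := htr (x (k + 2)) (hx _ (by omega) le_rfl) (q (k + 2))
          (hqY _ _ (by omega) le_rfl hkt)
        obtain ⟨g', hg', hg'x⟩ := ih1 (fun i => g (x i))
          (fun i h1 h2 => hYsucc k _ (hinvT _ g hg _ (hx i h1 (by omega))) fun he => by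
            have := hinj i (k + 2) h1 (by omega) (by omega) le_rfl (g.injective (he.trans hgx.symm))
            omega)
          (fun i j h1 h2 h3 h4 he => hinj i j h1 (by omega) h3 (by omega) (g.injective he))
        have hTle : T k ≤ T (k + 1) := by
          rcases k with _ | k
          · rw [hT1]; exact inf_le_left
          · rw [hTs, hTs]
            exact Subgroup.closure_mono (Set.union_subset_union_right _
              fun x ⟨i, h1, h2, h3⟩ => ⟨i, h1, by omega, h3⟩)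
        refine ⟨g' * g, Subgroup.mul_mem _ (hTle hg') hg, fun i h1 h2 => ?_⟩
        show g' (g (x i)) = q i
        rcases Nat.lt_or_ge i (k + 2) with h | h
        · exact hg'x i h1 (by omega)
        · have : i = k + 2 := by omega
          subst this
          rw [hgx]
          exact hfixT k g' hg' (k + 2) le_rfl (by omega)
      · exact ih2 g (hst k rfl g hg (hgq _ (by omega) le_rfl)) fun i h1 h2 => hgq i h1 (by omega)
  obtain ⟨m, rfl⟩ : ∃ m, t = m + 2 := ⟨t - 2, by omega⟩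
  have hTtop : T (m + 1) = Subgroup.closure ((G : Set (Equiv.Perm α)) ∪
      {x | ∃ i : ℕ, 2 ≤ i ∧ i + 1 ≤ m + 2 ∧ x = s i}) := by
    rw [hTs]
    simp only [Nat.add_le_add_iff_right]
  obtain ⟨c1, c2⟩ := chain (m + 1) le_rfl
  rw [← hTtop]
  constructor
  · rw [MulAction.isMultiplyPretransitive_iff]
    have key : ∀ x : Fin (m + 2) ↪ α, ∃ g ∈ T (m + 1), ∀ i : Fin (m + 2), g (x i) = q (i + 1) := by
      intro x
      let f : ℕ → α := fun i => if h : i - 1 < m + 2 then x ⟨i - 1, h⟩ else q 1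
      obtain ⟨g, hg, hgf⟩ := c1 f (fun i _ _ j hj hjt => by omega) (fun i j h1 h2 h3 h4 he => by
        simp only [f, dif_pos (show i - 1 < m + 2 by omega),
          dif_pos (show j - 1 < m + 2 by omega)] at he
        have := congrArg Fin.val (x.injective he)
        simp only at this
        omega)
      refine ⟨g, hg, fun i => ?_⟩
      have := hgf (i + 1) (by omega) (by omega)
      simpa [f] using this
    intro x y
    obtain ⟨gx, hgx, hx⟩ := key x
    obtain ⟨gy, hgy, hy⟩ := key y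
    refine ⟨⟨gy⁻¹ * gx, Subgroup.mul_mem _ (Subgroup.inv_mem _ hgy) hgx⟩, ?_⟩
    ext i : 1
    show gy⁻¹ (gx (x i)) = y i
    rw [Equiv.Perm.inv_eq_iff_eq, hx, hy]
  · refine le_antisymm (fun g hg => c2 g hg.1 fun i h1 h2 => ?_) (fun g hg => ⟨hHG _ hg, ?_⟩)
    · exact (mem_fixingSubgroup_iff _).mp hg.2 (q i) ⟨i, h1, h2, rfl⟩
    · refine (mem_fixingSubgroup_iff _).mpr ?_
      rintro _ ⟨i, h1, h2, rfl⟩
      rw [hH] at hg
      show g (q i) = q i
      rcases (by omega : i = 1 ∨ i = 2 ∨ 3 ≤ i) with h | h | h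
      · subst h; exact hg.1.2
      · subst h; exact hg.2
      · exact hfix g hg.1.1 i h h2

end CfsgLib.Perm57
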